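import Cfsg.Agent.Lib.Suzuki.Group
import Cfsg.Agent.Lib.Suzuki.LieBridge

/-!
The action of `Sz(8)` on its ovoid, in numbers: the field is `𝔽₂[r]` with `r³ = r + 1`, a field
element is a number below 8 and the point `(x, y)` is `8 x + y`, infinity being `64`.
-/

set_option autoImplicit false
set_option linter.style.haveILetI false
set_option linter.unusedSectionVars false

namespace CfsgLib.SchurMult.SuzukiEight

open CfsgLib.Suzuki

/-- Multiplication by the root. -/
def shl (i : ℕ) : ℕ := [0, 2, 4, 6, 3, 1, 7, 5].getD i 0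

/-- Multiplication. -/
def mulT (i j : ℕ) : ℕ :=
  (if j.testBit 0 then i else 0) ^^^ (if j.testBit 1 then shl i else 0) ^^^
    (if j.testBit 2 then shl (shl i) else 0)

/-- Fourth powers. -/
def thT (i : ℕ) : ℕ := mulT (mulT i i) (mulT i i)

/-- Inverses. -/
def invT (i : ℕ) : ℕ := mulT (mulT i i) (thT i)

/-- The form of the ovoid. -/
def fzT (x y : ℕ) : ℕ := mulT x y ^^^ mulT (thT x) (mulT x x) ^^^ thT y

/-- Root element. -/
def uT (a b u : ℕ) : ℕ :=
  if u = 64 then 64 else 8 * (a ^^^ u / 8) + (b ^^^ u % 8 ^^^ mulT (thT a) (u / 8))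

/-- Torus element. -/
def dT (t u : ℕ) : ℕ :=
  if u = 64 then 64 else 8 * mulT (thT t) (u / 8) + mulT (mulT (thT (thT t)) (thT t)) (u % 8)

/-- Weyl element. -/
def wT (u : ℕ) : ℕ :=
  if u = 64 then 0 else if u = 0 then 64 else
    8 * mulT (u % 8) (invT (fzT (u / 8) (u % 8))) + mulT (u / 8) (invT (fzT (u / 8) (u % 8)))

theorem shl_lt (i : ℕ) : shl i < 8 := by
  rcases Nat.lt_or_ge i 8 with h | h
  · interval_cases i <;> decide
  · rw [shl, List.getD_eq_default _ _ (by simpa using h)]; norm_num

theorem xor_lt {a b : ℕ} (ha : a < 8) (hb : b < 8) : a ^^^ b < 8 := Nat.xor_lt_two_pow (n := 3) ha hb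

theorem mulT_lt {i : ℕ} (hi : i < 8) (j : ℕ) : mulT i j < 8 := by
  unfold mulT
  refine xor_lt (xor_lt ?_ ?_) ?_ <;> split_ifs <;> first | assumption | exact shl_lt _ | norm_num

theorem thT_lt {i : ℕ} (hi : i < 8) : thT i < 8 := mulT_lt (mulT_lt hi _) _

theorem fzT_lt {x y : ℕ} (hx : x < 8) (hy : y < 8) : fzT x y < 8 :=
  xor_lt (xor_lt (mulT_lt hx _) (mulT_lt (thT_lt hx) _)) (thT_lt hy)

variable {F : Type*} [Field F]

/-- The element with the given coordinates. -/
def val (r : F) (i : ℕ) : F :=
  (if i.testBit 0 then 1 else 0) + (if i.testBit 1 then r else 0) + (if i.testBit 2 then r ^ 2 else 0)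

/-- The field has eight elements and `r` is a root of `X³ + X + 1`. -/
structure Root (r : F) : Prop where
  hyp : Hyp F 1
  eq : r ^ 3 = r + 1

theorem exists_root (h : Hyp F 1) : ∃ r : F, Root r := by
  haveI := h.finite
  letI : Fintype F := Fintype.ofFinite F
  obtain ⟨t, ht0, ht1⟩ := h.exists_ne_zero_one
  have hc : Fintype.card F = 8 := by
    rw [← Nat.card_eq_fintype_card, h.card]; norm_num
  have h7 : t ^ 7 = 1 := by
    have := FiniteField.pow_card_sub_one_eq_one t ht0
    rwa [hc] at this
  have h2 := h.two_eq_zero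
  have hp : (t ^ 3 + t + 1) * (t ^ 3 + t ^ 2 + 1) = 0 := by
    have : (t - 1) * ((t ^ 3 + t + 1) * (t ^ 3 + t ^ 2 + 1)) = 0 := by
      linear_combination h7 + (t ^ 4 - t ^ 3) * h2
    exact (mul_eq_zero.1 this).resolve_left (sub_ne_zero.2 ht1)
  rcases mul_eq_zero.1 hp with hr | hr
  · exact ⟨t, h, by linear_combination hr - (t + 1) * h2⟩
  · refine ⟨t⁻¹, h, ?_⟩
    field_simp
    linear_combination -hr + h2

namespace Root

variable {r : F} (hr : Root r)
include hr

theorem val_zero : val r 0 = 0 := by simp [val]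

theorem val_one : val r 1 = 1 := by simp [val, Nat.testBit]

theorem val_two : val r 2 = r := by simp [val, Nat.testBit]

theorem val_add (i j : ℕ) : val r i + val r j = val r (i ^^^ j) := by
  have h := hr.hyp.add_self
  simp only [val, Nat.testBit_xor]
  cases i.testBit 0 <;> cases i.testBit 1 <;> cases i.testBit 2 <;> cases j.testBit 0 <;>
    cases j.testBit 1 <;> cases j.testBit 2 <;> simp <;>
    linear_combination (norm := ring_nf) (0 : F) <;> simp [hr.hyp.two_eq_zero]

theorem val_shl {i : ℕ} (hi : i < 8) : val r i * r = val r (shl i) := by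
  have h := hr.eq
  have h2 := hr.hyp.two_eq_zero
  interval_cases i <;> simp [val, shl, Nat.testBit] <;>
    first
      | ring1
      | linear_combination h
      | linear_combination h + r * h2
      | linear_combination h + h2
      | linear_combination h + (r + 1) * h2
      | linear_combination (r + 1) * h
      | linear_combination h + (r + r ^ 2) * h2
      | linear_combination h + r ^ 2 * h2

theorem val_mul {i : ℕ} (hi : i < 8) (j : ℕ) : val r i * val r j = val r (mulT i j) := by
  unfold mulT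
  rw [← hr.val_add, ← hr.val_add]
  conv_lhs => arg 2; rw [val]
  rw [mul_add, mul_add]
  congr 1
  · congr 1
    · cases j.testBit 0 <;> simp [hr.val_zero, mul_comm, val]
    · cases j.testBit 1 <;> simp [hr.val_zero, ← hr.val_shl hi] <;> simp [val]
  · cases j.testBit 2 <;> simp [hr.val_zero, ← hr.val_shl (shl_lt i), ← hr.val_shl hi] <;> simp [val] <;> ring

theorem val_th {i : ℕ} (hi : i < 8) : th 1 (val r i) = val r (thT i) := by
  rw [thT, ← hr.val_mul (mulT_lt hi _), ← hr.val_mul hi, th]
  ring

theorem val_inv {i : ℕ} (hi : i < 8) (h0 : i ≠ 0) : val r i * val r (invT i) = 1 := by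
  rw [hr.val_mul hi, show mulT i (invT i) = 1 by interval_cases i <;> first | exact absurd rfl h0 | decide,
    hr.val_one]

theorem val_ne_zero {i : ℕ} (hi : i < 8) (h0 : i ≠ 0) : val r i ≠ 0 :=
  left_ne_zero_of_mul_eq_one (hr.val_inv hi h0)

theorem val_injective {i j : ℕ} (hi : i < 8) (hj : j < 8) (h : val r i = val r j) : i = j := by
  by_contra hne
  refine hr.val_ne_zero (xor_lt hi hj) (fun e => hne (Nat.xor_eq_zero_iff.1 e)) ?_
  rw [← hr.val_add, h, hr.hyp.add_self]

/-- The point with the given number. -/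
def point (r : F) (u : ℕ) : Cfsg.suzukiOvoid F 1 :=
  if u = 64 then oInf F 1 else oPt 1 (val r (u / 8)) (val r (u % 8))

omit hr in
theorem point_inf : point r 64 = oInf F 1 := if_pos rfl

omit hr in
theorem point_pt {x y : ℕ} (hx : x < 8) (hy : y < 8) :
    point r (8 * x + y) = oPt 1 (val r x) (val r y) := by
  rw [point, if_neg (by omega), show (8 * x + y) / 8 = x by omega, show (8 * x + y) % 8 = y by omega]

theorem point_zero : point r 0 = oPt 1 0 0 := by
  rw [show (0 : ℕ) = 8 * 0 + 0 from rfl, point_pt (by norm_num) (by norm_num), hr.val_zero]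

theorem u_point {a b u : ℕ} (ha : a < 8) (hb : b < 8) (hu : u < 65) :
    hr.hyp.u (val r a) (val r b) • point r u = point r (uT a b u) := by
  by_cases h : u = 64
  · subst h
    rw [uT, if_pos rfl, point_inf, Hyp.u_smul_inf]
  · obtain ⟨x, y, hx, hy, rfl⟩ : ∃ x y, x < 8 ∧ y < 8 ∧ u = 8 * x + y :=
      ⟨u / 8, u % 8, by omega, by omega, by omega⟩
    rw [point_pt hx hy, Hyp.u_smul, uT, if_neg (by omega), show (8 * x + y) / 8 = x by omega,
      show (8 * x + y) % 8 = y by omega, point_pt (xor_lt ha hx)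
        (xor_lt (xor_lt hb hy) (mulT_lt (thT_lt ha) _)),
      hr.val_th ha, hr.val_mul (thT_lt ha), hr.val_add, hr.val_add, hr.val_add]

theorem d_point {t u : ℕ} (ht : t < 8) (s : Fˣ) (hs : (s : F) = val r t) (hu : u < 65) :
    hr.hyp.d s • point r u = point r (dT t u) := by
  by_cases h : u = 64
  · subst h
    rw [dT, if_pos rfl, point_inf, Hyp.d_smul_inf]
  · obtain ⟨x, y, hx, hy, rfl⟩ : ∃ x y, x < 8 ∧ y < 8 ∧ u = 8 * x + y :=
      ⟨u / 8, u % 8, by omega, by omega, by omega⟩
    rw [point_pt hx hy, Hyp.d_smul, dT, if_neg (by omega), show (8 * x + y) / 8 = x by omega,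
      show (8 * x + y) % 8 = y by omega, point_pt (mulT_lt (thT_lt ht) _)
        (mulT_lt (mulT_lt (thT_lt (thT_lt ht)) _) _), kap, hs, hr.val_th ht, hr.val_th (thT_lt ht),
      hr.val_mul (thT_lt (thT_lt ht)), hr.val_mul (thT_lt ht),
      hr.val_mul (mulT_lt (thT_lt (thT_lt ht)) _)]

theorem w_point {u : ℕ} (hu : u < 65) : hr.hyp.w • point r u = point r (wT u) := by
  by_cases h : u = 64
  · subst h
    rw [wT, if_pos rfl, point_inf, Hyp.w_smul_inf, hr.point_zero]
  by_cases h0 : u = 0
  · subst h0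
    rw [wT, if_neg h, if_pos rfl, hr.point_zero, Hyp.w_smul_zero, point_inf]
  obtain ⟨x, y, hx, hy, rfl⟩ : ∃ x y, x < 8 ∧ y < 8 ∧ u = 8 * x + y :=
    ⟨u / 8, u % 8, by omega, by omega, by omega⟩
  have hne : fzT x y ≠ 0 := by
    have hb : (List.range 8).all (fun x => (List.range 8).all fun y =>
        (x == 0 && y == 0) || fzT x y != 0) = true := by decide +kernel
    simp only [List.all_eq_true, List.mem_range] at hb
    have := hb x hx y hy
    simp at this
    exact this.resolve_left fun e => h0 (by omega)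
  have hfz : fz 1 (val r x) (val r y) = val r (fzT x y) := by
    rw [fz, fzT, ← hr.val_add, ← hr.val_add, ← hr.val_mul hx, ← hr.val_mul (thT_lt hx),
      ← hr.val_mul hx, hr.val_th hx, hr.val_th hy]
    ring
  have hnz : val r x ≠ 0 ∨ val r y ≠ 0 := by
    rcases Nat.eq_zero_or_pos x with rfl | hx0
    · exact Or.inr (hr.val_ne_zero hy (by omega))
    · exact Or.inl (hr.val_ne_zero hx hx0.ne')
  have hi : val r (invT (fzT x y)) = (val r (fzT x y))⁻¹ :=
    eq_inv_of_mul_eq_one_right (hr.val_inv (fzT_lt hx hy) hne)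
  rw [point_pt hx hy, Hyp.w_smul _ hnz, wT, if_neg h, if_neg h0, show (8 * x + y) / 8 = x by omega,
    show (8 * x + y) % 8 = y by omega, point_pt (mulT_lt hy _) (mulT_lt hx _), hfz,
    ← hr.val_mul hy, ← hr.val_mul hx, hi, div_eq_mul_inv, div_eq_mul_inv]

theorem point_bijective : Function.Bijective fun u : Fin 65 => point r u := by
  haveI := hr.hyp.finite
  haveI : Finite (Cfsg.suzukiOvoid F 1) := inferInstance
  have hinj : Function.Injective fun u : Fin 65 => point r u := by
    intro u v e
    apply Fin.ext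
    simp only [point] at e
    split_ifs at e with hu hv hv
    · omega
    · exact absurd e.symm (oPt_ne_oInf _ _)
    · exact absurd e (oPt_ne_oInf _ _)
    · obtain ⟨e1, e2⟩ := oPt_injective e
      have := hr.val_injective (by omega) (by omega) e1
      have := hr.val_injective (by omega) (by omega) e2
      omega
  refine (Nat.bijective_iff_injective_and_card _).2 ⟨hinj, ?_⟩
  rw [hr.hyp.card_suzukiOvoid, Nat.card_fin]
  norm_num

end Root

end CfsgLib.SchurMult.SuzukiEight
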