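import Cfsg.Agent.Lib.SchurMult.Suzuki
import Cfsg.Agent.Lib.SchurMult.SuzukiEight.Ovoid

/-!
The kernel of a stem extension of `Sz(8)` is an image of a four group.
-/

set_option autoImplicit false
set_option linter.style.haveILetI false

namespace CfsgLib.SchurMult.SuzukiEight

open CfsgLib.Suzuki CfsgLib.SchurMult
open scoped commutatorElement

universe u v

variable {F : Type u} [Field F] {m : ℕ}

/-- The commutator subgroup of the preimage of the root group meets the kernel trivially once the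
commutators of lifts of root elements with lifts of central ones vanish. -/
theorem local_two (h : Hyp F m) (h4 : Nat.card F ≠ 4) (h9 : Nat.card F ≠ 9) {Γ : Type v} [Group Γ] [Finite Γ]
    (σ : Γ →* Cfsg.Sz F m) (hσ : Cfsg.IsStemExtension σ)
    (hB' : ∀ {w w' : Γ} {a y : F}, σ w = h.u a 0 → σ w' = h.u 0 y → ⁅w, w'⁆ = 1) :
    ∀ z ∈ ⁅h.U.comap σ, h.U.comap σ⁆, z ∈ σ.ker → z = 1 := by
  classical
  intro z hz hzk
  haveI := h.finite
  letI : Fintype F := Fintype.ofFinite F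
  rw [Nat.card_eq_fintype_card] at h4 h9
  have hc := hσ.2.1
  letI : CommGroup σ.ker :=
    { mul_comm := fun x y => Subtype.ext (Subgroup.mem_center_iff.1 (hc y.2) (x : Γ)) }
  obtain ⟨L, hL⟩ : ∃ L : F → F → Γ, ∀ a b, σ (L a b) = h.u a b :=
    ⟨fun a b => (hσ.1 (h.u a b)).choose, fun a b => (hσ.1 (h.u a b)).choose_spec⟩
  have hu0 : ∀ a b, σ (L a b) = h.u a 0 * h.u 0 b := fun a b => by rw [hL, h.u_mul]; simp
  have hcz : ∀ a b y, Commute (σ (L a b)) (σ (L 0 y)) := fun a b y => by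
    rw [hL, hL, Commute, SemiconjBy, h.u_mul, h.u_mul]
    simp only [add_zero, zero_add, mul_zero, th_zero, zero_mul, add_comm b y]
  have hz_add : ∀ x y, σ (L 0 (x + y)) = σ (L 0 x * L 0 y) := fun x y => by
    rw [map_mul, hL, hL, hL, h.u_mul]; simp [th_zero]
  obtain ⟨g, hg⟩ : ∃ g : Fˣ → Γ, ∀ t, σ (g t) = h.d t :=
    ⟨fun t => (hσ.1 (h.d t)).choose, fun t => (hσ.1 (h.d t)).choose_spec⟩
  have hgu : ∀ t a b, σ (g t * L a b * (g t)⁻¹) = h.u (kap m t * a) (th m (kap m t) * kap m t * b) :=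
    fun t a b => by rw [map_mul, map_mul, map_inv, hg, hL, h.d_u]
  have hmu : ∀ s : F, s ≠ 0 → ∃ t : Fˣ, th m (kap m t) * kap m t = s := fun s hs => by
    obtain ⟨k, hk⟩ := h.th_mul_self_bijective.2 s
    obtain ⟨t, rfl⟩ := h.exists_kap (κ := k) (fun e => hs (by rw [← hk, e]; simp))
    exact ⟨t, hk⟩
  -- A: the lifts of the centre of `U` commute
  have hA : ∀ x y, ⁅L 0 x, L 0 y⁆ = 1 := by
    intro x y
    let e : F → F → Additive σ.ker := fun a b =>
      Additive.ofMul ⟨⁅L 0 a, L 0 b⁆, comm_mem_ker (hcz 0 a b)⟩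
    have key := pairing_eq_zero e
      (fun a b c => Subtype.ext (by
        show ⁅L 0 (a + b), L 0 c⁆ = ⁅L 0 a, L 0 c⁆ * ⁅L 0 b, L 0 c⁆
        rw [← comm_mul_left hc (hcz 0 b c)]; exact comm_eq_of_map_eq hc (hz_add a b) rfl))
      (fun a b c => Subtype.ext (by
        show ⁅L 0 a, L 0 (b + c)⁆ = ⁅L 0 a, L 0 b⁆ * ⁅L 0 a, L 0 c⁆
        rw [← comm_mul_right hc (hcz 0 a c)]; exact comm_eq_of_map_eq hc rfl (hz_add b c)))
      (fun a => Subtype.ext (commutatorElement_self _))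
      (fun s hs _ a b => Subtype.ext (by
        show ⁅L 0 (s * a), L 0 (s * b)⁆ = ⁅L 0 a, L 0 b⁆
        obtain ⟨t, rfl⟩ := hmu s hs
        rw [← comm_conj hc (hcz 0 a b) (g t)]
        refine comm_eq_of_map_eq hc ?_ ?_ <;> rw [hgu, hL, mul_zero]))
      h4 h9 x y
    exact congrArg (fun w : Additive σ.ker => ((Additive.toMul w : σ.ker) : Γ)) key
  have hB : ∀ a y, ⁅L a 0, L 0 y⁆ = 1 := fun a y => hB' (hL a 0) (hL 0 y)
  -- C: a complement to the kernel over the centre of `U`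
  have hcomm0 : ∀ {w w' : Γ} {x y : F}, σ w = h.u 0 x → σ w' = h.u 0 y → Commute w w' := fun {w w' x y} hw hw' => by
    rw [← commutatorElement_eq_one_iff_commute,
      comm_eq_of_map_eq hc (a' := L 0 x) (b' := L 0 y) (by rw [hw, hL]) (by rw [hw', hL]), hA]
  obtain ⟨x0, hx00, hx01⟩ := h.exists_ne_zero_one
  obtain ⟨t0, ht0⟩ := hmu x0 hx00
  have hd : x0 + 1 ≠ 0 := fun e => hx01 (h.add_eq_zero_iff.1 e)
  let δ : Γ → Γ := fun w => g t0 * w * (g t0)⁻¹ * w⁻¹
  have hδker : ∀ {w w' : Γ}, σ w = σ w' → δ w = δ w' := fun {w w'} e => by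
    show ⁅g t0, w⁆ = ⁅g t0, w'⁆
    exact comm_eq_of_map_eq hc rfl e
  have hδmap : ∀ {w : Γ} {x : F}, σ w = h.u 0 x → σ (δ w) = h.u 0 (x0 * x + x) := fun {w x} hw => by
    show σ (g t0 * w * (g t0)⁻¹ * w⁻¹) = _
    rw [map_mul, map_mul, map_mul, map_inv, map_inv, hg, hw, h.d_u, ht0, h.u_inv, h.u_mul]
    simp [th_zero]
  let ℓ : F → Γ := fun b => δ (L 0 (b / (x0 + 1)))
  have hℓmap : ∀ b, σ (ℓ b) = h.u 0 b := fun b => by
    rw [hδmap (hL 0 _)]
    congr 1
    field_simp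
  have hℓadd : ∀ a b, ℓ (a + b) = ℓ a * ℓ b := fun a b => by
    show δ _ = δ _ * δ _
    rw [add_div, hδker (hz_add _ _)]
    set p := L 0 (a / (x0 + 1))
    set q := L 0 (b / (x0 + 1))
    have c1 : Commute p⁻¹ (g t0 * q * (g t0)⁻¹ * q⁻¹) :=
      (hcomm0 (hL 0 _) (hδmap (hL 0 _))).inv_left
    show g t0 * (p * q) * (g t0)⁻¹ * (p * q)⁻¹ = (g t0 * p * (g t0)⁻¹ * p⁻¹) * (g t0 * q * (g t0)⁻¹ * q⁻¹)
    rw [mul_assoc (g t0 * p * (g t0)⁻¹) p⁻¹, c1.eq]
    group
  let N : Subgroup Γ :=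
    { carrier := Set.range ℓ
      one_mem' := ⟨0, by
        have := hℓadd 0 0
        rw [add_zero] at this
        exact left_eq_mul.1 this⟩
      mul_mem' := by rintro _ _ ⟨a, rfl⟩ ⟨b, rfl⟩; exact ⟨a + b, hℓadd a b⟩
      inv_mem' := by
        rintro _ ⟨a, rfl⟩
        refine ⟨a, eq_inv_of_mul_eq_one_left ?_⟩
        rw [← hℓadd, h.add_self]
        have := hℓadd 0 0
        rw [add_zero] at this
        exact left_eq_mul.1 this }
  have hℓ0 : ℓ 0 = 1 := by
    have := hℓadd 0 0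
    rw [add_zero] at this
    exact left_eq_mul.1 this
  have hD : ∀ a c, ⁅L a 0, L c 0⁆ = ℓ (th m a * c + th m c * a) := by
    let D : F → F → F := fun a c => th m a * c + th m c * a
    have hmap : ∀ a c, σ ⁅L a 0, L c 0⁆ = h.u 0 (D a c) := fun a c => by
      rw [map_commutatorElement, hL, hL, h.commutator_u]
    have hk : ∀ a c, ⁅L a 0, L c 0⁆ * (ℓ (D a c))⁻¹ ∈ σ.ker := fun a c => by
      rw [MonoidHom.mem_ker, map_mul, map_inv, hmap, hℓmap, mul_inv_cancel]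
    let e : F → F → Additive σ.ker := fun a c => Additive.ofMul ⟨_, hk a c⟩
    have hzcomm : ∀ (a : F) {w : Γ} {x : F}, σ w = h.u 0 x → Commute (L a 0) w := fun a {w x} hw => by
      rw [← commutatorElement_eq_one_iff_commute, comm_eq_of_map_eq hc (b' := L 0 x) rfl (by rw [hw, hL]), hB]
    have hsplit : ∀ a a', σ (L a 0 * L a' 0) = σ (L (a + a') 0 * L 0 (th m a * a')) := fun a a' => by
      rw [map_mul, map_mul, hL, hL, hL, hL, h.u_mul, h.u_mul]; simp
    have h1 : ∀ a a' c, ⁅L (a + a') 0, L c 0⁆ = ⁅L a 0, L c 0⁆ * ⁅L a' 0, L c 0⁆ := fun a a' c => by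
      have e1 : ⁅L a 0 * L a' 0, L c 0⁆ = ⁅L (a + a') 0, L c 0⁆ := by
        rw [comm_eq_of_map_eq hc (hsplit a a') rfl]
        calc ⁅L (a + a') 0 * L 0 (th m a * a'), L c 0⁆
            = L (a + a') 0 * ⁅L 0 (th m a * a'), L c 0⁆ * (L (a + a') 0)⁻¹ * ⁅L (a + a') 0, L c 0⁆ := by
              simp only [commutatorElement_def]; group
          _ = _ := by
              rw [(commutatorElement_eq_one_iff_commute.2 ((hzcomm c (hL 0 _)).symm))]
              group
      rw [← e1]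
      calc ⁅L a 0 * L a' 0, L c 0⁆
          = L a 0 * ⁅L a' 0, L c 0⁆ * (L a 0)⁻¹ * ⁅L a 0, L c 0⁆ := by
            simp only [commutatorElement_def]; group
        _ = ⁅L a' 0, L c 0⁆ * ⁅L a 0, L c 0⁆ := by rw [(hzcomm a (hmap a' c)).eq, mul_inv_cancel_right]
        _ = _ := (hcomm0 (hmap a' c) (hmap a c)).eq
    have key := pairing_eq_zero e
      (fun a a' c => Subtype.ext (by
        show ⁅L (a + a') 0, L c 0⁆ * (ℓ (D (a + a') c))⁻¹ =
          (⁅L a 0, L c 0⁆ * (ℓ (D a c))⁻¹) * (⁅L a' 0, L c 0⁆ * (ℓ (D a' c))⁻¹)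
        rw [h1, show D (a + a') c = D a c + D a' c by simp only [D, h.th_add]; ring, hℓadd]
        have hk' := ker_comm hc (hk a' c) (ℓ (D a c))⁻¹
        calc ⁅L a 0, L c 0⁆ * ⁅L a' 0, L c 0⁆ * (ℓ (D a c) * ℓ (D a' c))⁻¹
            = ⁅L a 0, L c 0⁆ * ((⁅L a' 0, L c 0⁆ * (ℓ (D a' c))⁻¹) * (ℓ (D a c))⁻¹) := by group
          _ = _ := by rw [← hk']; group))
      (fun a c c' => Subtype.ext (by
        show ⁅L a 0, L (c + c') 0⁆ * (ℓ (D a (c + c')))⁻¹ =
          (⁅L a 0, L c 0⁆ * (ℓ (D a c))⁻¹) * (⁅L a 0, L c' 0⁆ * (ℓ (D a c'))⁻¹)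
        rw [← commutatorElement_inv, h1, show D a (c + c') = D a c + D a c' by simp only [D, h.th_add]; ring, hℓadd,
          _root_.mul_inv_rev, commutatorElement_inv, commutatorElement_inv,
          (hcomm0 (hmap a c') (hmap a c)).eq]
        have hk' := ker_comm hc (hk a c') (ℓ (D a c))⁻¹
        calc ⁅L a 0, L c 0⁆ * ⁅L a 0, L c' 0⁆ * (ℓ (D a c) * ℓ (D a c'))⁻¹
            = ⁅L a 0, L c 0⁆ * ((⁅L a 0, L c' 0⁆ * (ℓ (D a c'))⁻¹) * (ℓ (D a c))⁻¹) := by group
          _ = _ := by rw [← hk']; group))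
      (fun a => Subtype.ext (by
        show ⁅L a 0, L a 0⁆ * (ℓ (D a a))⁻¹ = 1
        rw [show D a a = 0 from h.add_self _, hℓ0, commutatorElement_self, inv_one, mul_one]))
      (fun s hs _ a c => Subtype.ext (by
        show ⁅L (s * a) 0, L (s * c) 0⁆ * (ℓ (D (s * a) (s * c)))⁻¹ = ⁅L a 0, L c 0⁆ * (ℓ (D a c))⁻¹
        obtain ⟨t, rfl⟩ := h.exists_kap hs
        have e1 : ⁅L (kap m t * a) 0, L (kap m t * c) 0⁆ = g t * ⁅L a 0, L c 0⁆ * (g t)⁻¹ := by
          rw [conjugate_commutatorElement]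
          refine comm_eq_of_map_eq hc ?_ ?_ <;> rw [hgu, hL, mul_zero]
        have e2 : ℓ (D (kap m t * a) (kap m t * c)) = g t * ℓ (D a c) * (g t)⁻¹ := by
          show ⁅g t0, _⁆ = g t * ⁅g t0, _⁆ * (g t)⁻¹
          rw [conjugate_commutatorElement]
          refine comm_eq_of_map_eq hc ?_ ?_
          · rw [map_mul, map_mul, map_inv, hg, hg, h.d_mul, h.d_inv, h.d_mul, mul_comm t t0,
              mul_inv_cancel_right]
          · rw [hgu, hL, mul_zero]
            congr 1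
            simp only [D, th_mul]
            ring
        rw [e1, e2]
        calc g t * ⁅L a 0, L c 0⁆ * (g t)⁻¹ * (g t * ℓ (D a c) * (g t)⁻¹)⁻¹
            = g t * (⁅L a 0, L c 0⁆ * (ℓ (D a c))⁻¹) * (g t)⁻¹ := by group
          _ = _ := by rw [ker_comm hc (hk a c) (g t), mul_inv_cancel_right]))
      h4 h9
    intro a c
    exact mul_inv_eq_one.1 (congrArg (fun w : Additive σ.ker => ((Additive.toMul w : σ.ker) : Γ)) (key a c))
  -- conclusion
  let S : Set Γ := {w | ∃ a, w = L a 0 ∨ w = L 0 a}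
  have hU : h.U = Subgroup.closure (σ '' S) := by
    refine le_antisymm ?_ ((Subgroup.closure_le _).2 ?_)
    · rintro _ ⟨a, b, rfl⟩
      rw [show h.u a b = σ (L a 0) * σ (L 0 b) by rw [hL, hL, h.u_mul]; simp]
      exact mul_mem (Subgroup.subset_closure ⟨_, ⟨a, Or.inl rfl⟩, rfl⟩)
        (Subgroup.subset_closure ⟨_, ⟨b, Or.inr rfl⟩, rfl⟩)
    · rintro _ ⟨_, ⟨a, rfl | rfl⟩, rfl⟩ <;> rw [hL] <;> exact h.u_mem_U _ _
  have hSN : ∀ s ∈ S, ∀ b, Commute s (ℓ b) := by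
    rintro s ⟨a, rfl | rfl⟩ b
    · rw [← commutatorElement_eq_one_iff_commute,
        comm_eq_of_map_eq hc (b' := L 0 b) rfl (by rw [hℓmap, hL]), hB]
    · exact hcomm0 (hL 0 a) (hℓmap b)
  rw [hU] at hz
  have hzN : z ∈ N := by
    refine commutator_comap_closure_le hc S N (fun s hs => ?_) ?_ hz
    · rw [Subgroup.mem_normalizer_iff]
      intro w
      constructor <;> rintro ⟨b, hb⟩ <;> refine ⟨b, ?_⟩
      · rw [← hb, (hSN s hs b).eq, mul_inv_cancel_right]
      · have : w = s⁻¹ * (s * w * s⁻¹) * s := by group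
        rw [this, ← hb, mul_assoc, ← (hSN s hs b).eq, inv_mul_cancel_left]
    · rintro _ ⟨a, rfl | rfl⟩ _ ⟨c, rfl | rfl⟩
      · exact ⟨_, (hD a c).symm⟩
      · rw [hB]; exact one_mem N
      · rw [← commutatorElement_inv, hB, inv_one]; exact one_mem N
      · rw [hA]; exact one_mem N
  obtain ⟨b, rfl⟩ := hzN
  have e : h.u 0 b = h.u 0 0 := by rw [h.u_zero, ← hℓmap]; exact hzk
  rw [(h.u_injective e).2, hℓ0]

/-- In a stem extension of `Sz(8)` the commutators of lifts of root elements with lifts of central ones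
form a central subgroup which is an image of a four group. -/
theorem centre_pairing {r : F} (hr : Root r) {Γ : Type v} [Group Γ] [Finite Γ]
    (σ : Γ →* Cfsg.Sz F 1) (hσ : Cfsg.IsStemExtension σ) :
    ∃ f : Multiplicative (ZMod 2 × ZMod 2) →* σ.ker,
      ∀ {w w' : Γ} {a y : F}, σ w = hr.hyp.u a 0 → σ w' = hr.hyp.u 0 y → ⁅w, w'⁆ ∈ f.range.map σ.ker.subtype := by
  classical
  obtain ⟨h, h3⟩ := hr
  have hr : Root r := ⟨h, h3⟩
  haveI := h.finite
  letI : Fintype F := Fintype.ofFinite F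
  have hcard : Fintype.card F = 8 := by rw [← Nat.card_eq_fintype_card, h.card]; norm_num
  have h4 : Fintype.card F ≠ 4 := by omega
  have h9 : Fintype.card F ≠ 9 := by omega
  have hc := hσ.2.1
  letI : CommGroup σ.ker :=
    { mul_comm := fun x y => Subtype.ext (Subgroup.mem_center_iff.1 (hc y.2) (x : Γ)) }
  obtain ⟨L, hL⟩ : ∃ L : F → F → Γ, ∀ a b, σ (L a b) = h.u a b :=
    ⟨fun a b => (hσ.1 (h.u a b)).choose, fun a b => (hσ.1 (h.u a b)).choose_spec⟩
  have hu0 : ∀ a b, σ (L a b) = h.u a 0 * h.u 0 b := fun a b => by rw [hL, h.u_mul]; simp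
  have hcz : ∀ a b y, Commute (σ (L a b)) (σ (L 0 y)) := fun a b y => by
    rw [hL, hL, Commute, SemiconjBy, h.u_mul, h.u_mul]
    simp only [add_zero, zero_add, mul_zero, th_zero, zero_mul, add_comm b y]
  have hz_add : ∀ x y, σ (L 0 (x + y)) = σ (L 0 x * L 0 y) := fun x y => by
    rw [map_mul, hL, hL, hL, h.u_mul]; simp [th_zero]
  obtain ⟨g, hg⟩ : ∃ g : Fˣ → Γ, ∀ t, σ (g t) = h.d t :=
    ⟨fun t => (hσ.1 (h.d t)).choose, fun t => (hσ.1 (h.d t)).choose_spec⟩
  have hgu : ∀ t a b, σ (g t * L a b * (g t)⁻¹) = h.u (kap 1 t * a) (th 1 (kap 1 t) * kap 1 t * b) :=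
    fun t a b => by rw [map_mul, map_mul, map_inv, hg, hL, h.d_u]
  have hmu : ∀ s : F, s ≠ 0 → ∃ t : Fˣ, th 1 (kap 1 t) * kap 1 t = s := fun s hs => by
    obtain ⟨k, hk⟩ := h.th_mul_self_bijective.2 s
    obtain ⟨t, rfl⟩ := h.exists_kap (κ := k) (fun e => hs (by rw [← hk, e]; simp))
    exact ⟨t, hk⟩
  -- A: the lifts of the centre of `U` commute
  have hA : ∀ x y, ⁅L 0 x, L 0 y⁆ = 1 := by
    intro x y
    let e : F → F → Additive σ.ker := fun a b =>
      Additive.ofMul ⟨⁅L 0 a, L 0 b⁆, comm_mem_ker (hcz 0 a b)⟩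
    have key := pairing_eq_zero e
      (fun a b c => Subtype.ext (by
        show ⁅L 0 (a + b), L 0 c⁆ = ⁅L 0 a, L 0 c⁆ * ⁅L 0 b, L 0 c⁆
        rw [← comm_mul_left hc (hcz 0 b c)]; exact comm_eq_of_map_eq hc (hz_add a b) rfl))
      (fun a b c => Subtype.ext (by
        show ⁅L 0 a, L 0 (b + c)⁆ = ⁅L 0 a, L 0 b⁆ * ⁅L 0 a, L 0 c⁆
        rw [← comm_mul_right hc (hcz 0 a c)]; exact comm_eq_of_map_eq hc rfl (hz_add b c)))
      (fun a => Subtype.ext (commutatorElement_self _))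
      (fun s hs _ a b => Subtype.ext (by
        show ⁅L 0 (s * a), L 0 (s * b)⁆ = ⁅L 0 a, L 0 b⁆
        obtain ⟨t, rfl⟩ := hmu s hs
        rw [← comm_conj hc (hcz 0 a b) (g t)]
        refine comm_eq_of_map_eq hc ?_ ?_ <;> rw [hgu, hL, mul_zero]))
      h4 h9 x y
    exact congrArg (fun w : Additive σ.ker => ((Additive.toMul w : σ.ker) : Γ)) key
  let e : F → F → Additive σ.ker := fun a y =>
    Additive.ofMul ⟨⁅L a 0, L 0 y⁆, comm_mem_ker (hcz a 0 y)⟩
  have er : ∀ a y y', e a (y + y') = e a y + e a y' := fun a y y' => Subtype.ext (by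
    show ⁅L a 0, L 0 (y + y')⁆ = ⁅L a 0, L 0 y⁆ * ⁅L a 0, L 0 y'⁆
    rw [← comm_mul_right hc (hcz a 0 y')]; exact comm_eq_of_map_eq hc rfl (hz_add y y'))
  have el : ∀ a a' y, e (a + a') y = e a y + e a' y := fun a a' y => Subtype.ext (by
    show ⁅L (a + a') 0, L 0 y⁆ = ⁅L a 0, L 0 y⁆ * ⁅L a' 0, L 0 y⁆
    rw [← comm_mul_left hc (hcz a' 0 y),
      comm_eq_of_map_eq hc (a := L a 0 * L a' 0) (a' := L (a + a') 0 * L 0 (th 1 a * a'))
        (by rw [map_mul, map_mul, hL, hL, hL, hL, h.u_mul, h.u_mul]; simp) rfl,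
      comm_mul_left hc (hcz 0 _ y), hA, mul_one])
  have einv : ∀ (k : F), k ≠ 0 → ∀ a y, e (k * a) (th 1 k * k * y) = e a y := fun k hk a y => Subtype.ext (by
    show ⁅L (k * a) 0, L 0 (th 1 k * k * y)⁆ = ⁅L a 0, L 0 y⁆
    obtain ⟨t, rfl⟩ := h.exists_kap hk
    rw [← comm_conj hc (hcz a 0 y) (g t)]
    refine comm_eq_of_map_eq hc ?_ ?_ <;> rw [hgu, hL, mul_zero])
  have hk : ∀ k : F, k ≠ 0 → ∀ y, e k y = e 1 (y * (th 1 k * k)⁻¹) := fun k hk y => by
    have := einv k hk 1 (y * (th 1 k * k)⁻¹)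
    rwa [mul_one, mul_left_comm, mul_inv_cancel₀ (mul_ne_zero (th_ne_zero hk) hk), mul_one] at this
  have hneg : ∀ a y, -e a y = e a y := fun a y => by
    refine (eq_neg_of_add_eq_zero_left ?_).symm
    have h0 : e a 0 = 0 := by
      have := er a 0 0
      rw [add_zero] at this
      exact left_eq_add.1 this
    rw [← er, h.add_self, h0]
  -- the relation from conjugation by a third root lift
  let D : F → F → F := fun a c => th 1 a * c + th 1 c * a
  have hu' : ∀ a b, σ (L a b) = σ (L a 0 * L 0 b) := fun a b => by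
    rw [map_mul, hu0, hL, hL]
  have hkey : ∀ a b c, e c (D a b) = e a (D c b) + e b (D c a) := by
    intro a b c
    set C := ⁅L a 0, L b 0⁆ with hC
    have hCmap : σ C = h.u 0 (D a b) := by rw [hC, map_commutatorElement, hL, hL, h.commutator_u]
    have hZ : ∀ x, σ (L c 0 * L x 0 * (L c 0)⁻¹) = σ (L 0 (D c x) * L x 0) := fun x => by
      have e1 : h.u c 0 * h.u x 0 * (h.u c 0)⁻¹ = ⁅h.u c 0, h.u x 0⁆ * h.u x 0 := by
        simp only [commutatorElement_def]; group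
      rw [map_mul, map_mul, map_inv, map_mul, hL, hL, hL, e1, h.commutator_u]
    set Za := L 0 (D c a) with hZa
    set Zb := L 0 (D c b) with hZb
    have h1 : L c 0 * C * (L c 0)⁻¹ = ⁅L c 0, L 0 (D a b)⁆ * C := by
      rw [← comm_eq_of_map_eq hc (a := L c 0) (b := C) rfl (by rw [hCmap, hL])]
      simp only [commutatorElement_def]; group
    have h2 : L c 0 * C * (L c 0)⁻¹ = ⁅Za * L a 0, Zb * L b 0⁆ := by
      rw [hC, conjugate_commutatorElement]
      exact comm_eq_of_map_eq hc (hZ a) (hZ b)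
    have hcZ : ∀ x, ∀ w : Γ, ∀ y, σ w = h.u 0 y → Commute (L 0 x) w := fun x w y hw => by
      rw [← commutatorElement_eq_one_iff_commute, comm_eq_of_map_eq hc rfl (by rw [hw, hL] : σ w = σ (L 0 y))]
      exact hA x y
    have h3 : ⁅L a 0, Zb * L b 0⁆ = ⁅L a 0, Zb⁆ * C := by
      calc ⁅L a 0, Zb * L b 0⁆ = ⁅L a 0, Zb⁆ * (Zb * C * Zb⁻¹) := by
            rw [hC]; simp only [commutatorElement_def]; group
        _ = _ := by rw [(hcZ _ C _ hCmap).eq, mul_inv_cancel_right]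
    have h4' : ⁅Za, Zb * L b 0⁆ = ⁅Za, L b 0⁆ := by
      calc ⁅Za, Zb * L b 0⁆ = ⁅Za, Zb⁆ * (Zb * ⁅Za, L b 0⁆ * Zb⁻¹) := by
            simp only [commutatorElement_def]; group
        _ = _ := by
            rw [hA, one_mul, ker_comm hc (comm_mem_ker (hcz b 0 (D c a)).symm) Zb, mul_inv_cancel_right]
    have h5 : ⁅Za * L a 0, Zb * L b 0⁆ = ⁅L a 0, Zb⁆ * C * ⁅Za, L b 0⁆ := by
      have hka : ⁅L a 0, Zb⁆ ∈ σ.ker := comm_mem_ker (hcz a 0 (D c b))
      have hcom : Commute Za (⁅L a 0, Zb⁆ * C) :=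
        Commute.mul_right (ker_comm hc hka Za) (hcZ _ C _ hCmap)
      calc ⁅Za * L a 0, Zb * L b 0⁆ = Za * ⁅L a 0, Zb * L b 0⁆ * Za⁻¹ * ⁅Za, Zb * L b 0⁆ := by
            simp only [commutatorElement_def]; group
        _ = _ := by rw [h3, h4', hcom.eq, mul_inv_cancel_right]
    have h6 : ⁅L c 0, L 0 (D a b)⁆ = ⁅L a 0, Zb⁆ * ⁅Za, L b 0⁆ := by
      have hkb : ⁅Za, L b 0⁆ ∈ σ.ker := comm_mem_ker (hcz b 0 (D c a)).symm
      refine mul_right_cancel (b := C) ?_
      rw [← h1, h2, h5, mul_assoc, mul_assoc, ker_comm hc hkb C]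
    rw [← hneg b (D c a)]
    exact congrArg Additive.ofMul (Subtype.ext (h6.trans (by
      rw [← commutatorElement_inv (L b 0) Za]; rfl)))
  have hv : ∀ {i : ℕ}, i < 8 → ∀ j, val r i * val r j = val r (mulT i j) := fun hi j => hr.val_mul hi j
  have he1 : e 1 1 = 0 := by
    have hDv : ∀ i j, i < 8 → j < 8 → D (val r i) (val r j) = val r (mulT (thT i) j ^^^ mulT (thT j) i) :=
      fun i j hi hj => by
        show th 1 _ * _ + th 1 _ * _ = _
        rw [hr.val_th hi, hr.val_th hj, hv (thT_lt hi), hv (thT_lt hj), hr.val_add]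
    have hkv : ∀ i j, i < 8 → i ≠ 0 → j < 8 →
        e (val r i) (val r j) = e 1 (val r (mulT j (invT (mulT (thT i) i)))) := fun i j hi hi0 hj => by
      have hne : mulT (thT i) i ≠ 0 := by
        intro e0
        have := mul_ne_zero (th_ne_zero (m := 1) (hr.val_ne_zero hi hi0)) (hr.val_ne_zero hi hi0)
        rw [hr.val_th hi, hv (thT_lt hi), e0, hr.val_zero] at this
        exact this rfl
      rw [hk _ (hr.val_ne_zero hi hi0), hr.val_th hi, hv (thT_lt hi),
        ← eq_inv_of_mul_eq_one_right (hr.val_inv (mulT_lt (thT_lt hi) _) hne), hv hj]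
    have := hkey (val r 2) (val r 4) (val r 1)
    rw [hDv 2 4 (by norm_num) (by norm_num), hDv 1 4 (by norm_num) (by norm_num),
      hDv 1 2 (by norm_num) (by norm_num), hkv 1 _ (by norm_num) one_ne_zero (xor_lt (mulT_lt (thT_lt (by norm_num)) _) (mulT_lt (thT_lt (by norm_num)) _)),
      hkv 2 _ (by norm_num) two_ne_zero (xor_lt (mulT_lt (thT_lt (by norm_num)) _) (mulT_lt (thT_lt (by norm_num)) _)),
      hkv 4 _ (by norm_num) four_ne_zero (xor_lt (mulT_lt (thT_lt (by norm_num)) _) (mulT_lt (thT_lt (by norm_num)) _)),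
      ← er, hr.val_add] at this
    have hsum := congrArg (fun x => e 1 (val r (mulT (mulT (thT 2) 4 ^^^ mulT (thT 4) 2) (invT (mulT (thT 1) 1)))) + x) this
    simp only [← er, hr.val_add, h.add_self] at hsum
    rw [show (mulT (mulT (thT 2) 4 ^^^ mulT (thT 4) 2) (invT (mulT (thT 1) 1))) ^^^
      (mulT (mulT (thT 1) 4 ^^^ mulT (thT 4) 1) (invT (mulT (thT 2) 2)) ^^^
       mulT (mulT (thT 1) 2 ^^^ mulT (thT 2) 1) (invT (mulT (thT 4) 4))) = 1 by decide, hr.val_one] at hsum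
    have h00 : e 1 0 = 0 := by
      have := er 1 0 0
      rw [add_zero] at this
      exact left_eq_add.1 this
    rw [Nat.xor_self, hr.val_zero, h00] at hsum
    exact hsum.symm
  haveI := h.charP
  let E₂ : F →+ Additive σ.ker := AddMonoidHom.mk' (e 1) (er 1)
  let ψ : ZMod 2 × ZMod 2 →+ F :=
    AddMonoidHom.mk' (fun p => ZMod.castHom dvd_rfl F p.1 * val r 2 + ZMod.castHom dvd_rfl F p.2 * val r 4)
      (fun p q => by simp only [Prod.fst_add, Prod.snd_add, map_add]; ring)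
  refine ⟨AddMonoidHom.toMultiplicativeLeft (E₂.comp ψ), fun {w w' a y} hw hw' => ?_⟩
  have hmem : ∀ x, e 1 x ∈ (E₂.comp ψ).range := by
    intro x
    let vf : Fin 8 → F := fun i => val r i
    have hvb : Function.Bijective vf := by
      refine (Nat.bijective_iff_injective_and_card _).2
        ⟨fun i j e => Fin.ext (hr.val_injective i.2 j.2 e), ?_⟩
      rw [Nat.card_fin, Nat.card_eq_fintype_card, hcard]
    obtain ⟨i, rfl⟩ := hvb.2 x
    have e2 : e 1 (val r 2) ∈ (E₂.comp ψ).range := ⟨(1, 0), by simp [ψ, E₂]⟩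
    have e4 : e 1 (val r 4) ∈ (E₂.comp ψ).range := ⟨(0, 1), by simp [ψ, E₂]⟩
    have e11 : e 1 (val r 1) ∈ (E₂.comp ψ).range := by rw [hr.val_one, he1]; exact zero_mem _
    have eadd : ∀ i j, e 1 (val r i) ∈ (E₂.comp ψ).range → e 1 (val r j) ∈ (E₂.comp ψ).range →
        e 1 (val r (i ^^^ j)) ∈ (E₂.comp ψ).range := fun i j hi hj => by
      rw [← hr.val_add, er]; exact add_mem hi hj
    have e0 : e 1 (val r 0) ∈ (E₂.comp ψ).range := by simpa using eadd 1 1 e11 e11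
    have hcase : ∀ i < 8, i = 0 ∨ i = 1 ∨ i = 2 ∨ i = 4 ∨ i = 1 ^^^ 2 ∨
        i = 1 ^^^ 4 ∨ i = 2 ^^^ 4 ∨ i = 1 ^^^ 2 ^^^ 4 := by decide
    show e 1 (val r i) ∈ _
    rcases hcase i i.2 with q | q | q | q | q | q | q | q <;> rw [q]
    · exact e0
    · exact e11
    · exact e2
    · exact e4
    · exact eadd _ _ e11 e2
    · exact eadd _ _ e11 e4
    · exact eadd _ _ e2 e4
    · exact eadd _ _ (eadd _ _ e11 e2) e4
  have hall : e a y ∈ (E₂.comp ψ).range := by
    rcases eq_or_ne a 0 with rfl | ha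
    · have h0 : e 0 y = 0 := by
        have := el 0 0 y
        rw [add_zero] at this
        exact left_eq_add.1 this
      rw [h0]; exact zero_mem _
    · rw [hk a ha]; exact hmem _
  obtain ⟨p, hp⟩ := hall
  refine ⟨Additive.toMul (E₂ (ψ p)), ⟨Multiplicative.ofAdd p, rfl⟩, ?_⟩
  rw [comm_eq_of_map_eq hc (a := w) (a' := L a 0) (b := w') (b' := L 0 y) (by rw [hw, hL]) (by rw [hw', hL])]
  exact congrArg (fun q : Additive σ.ker => ((Additive.toMul q : σ.ker) : Γ)) hp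

/-- The kernel of a stem extension of `Sz(8)` is an image of a four group. -/
theorem exists_surjective {r : F} (hr : Root r) {Γ : Type v} [Group Γ] [Finite Γ]
    (σ : Γ →* Cfsg.Sz F 1) (hσ : Cfsg.IsStemExtension σ) :
    ∃ π : Multiplicative (ZMod 2 × ZMod 2) →* σ.ker, Function.Surjective π := by
  classical
  have h := hr.hyp
  haveI := h.finite
  haveI := h.finite_group
  obtain ⟨f, hf⟩ := centre_pairing hr σ hσ
  set Z := f.range.map σ.ker.subtype with hZ
  have hZk : Z ≤ σ.ker := Subgroup.map_subtype_le _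
  haveI : Z.Normal := ⟨fun z hz g => by
    rw [ker_comm hσ.2.1 (hZk hz) g, mul_inv_cancel_right]; exact hz⟩
  let τ : Γ ⧸ Z →* Cfsg.Sz F 1 := QuotientGroup.lift Z σ hZk
  have hτk : τ.ker = σ.ker.map (QuotientGroup.mk' Z) := QuotientGroup.ker_lift Z σ hZk
  have hcomm : (commutator Γ).map (QuotientGroup.mk' Z) ≤ commutator (Γ ⧸ Z) := by
    rw [commutator_def, commutator_def, Subgroup.map_commutator]
    exact Subgroup.commutator_mono le_top le_top
  have hτ : Cfsg.IsStemExtension τ := by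
    refine ⟨QuotientGroup.lift_surjective_of_surjective Z σ hσ.1 hZk, ?_, ?_⟩
    · rw [hτk]
      rintro _ ⟨x, hx, rfl⟩
      rw [Subgroup.mem_center_iff]
      intro g
      obtain ⟨g, rfl⟩ := QuotientGroup.mk'_surjective Z g
      rw [← map_mul, ← map_mul, ker_comm hσ.2.1 hx g]
    · rw [hτk]
      exact (Subgroup.map_mono hσ.2.2).trans hcomm
  have hbot : τ.ker = ⊥ := by
    refine ker_eq_bot_of_local hτ fun p hp _ => ?_
    haveI := Fact.mk hp
    rcases ne_or_eq p 2 with hp2 | rfl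
    · obtain ⟨P⟩ : Nonempty (Sylow p (Cfsg.Sz F 1)) := inferInstance
      haveI := h.isCyclic_of_odd_pGroup hp2 (P : Subgroup _) P.isPGroup'
      refine ⟨P, P.not_dvd_index, fun z hz _ => ?_⟩
      rwa [commutator_comap_eq_bot_of_isCyclic hτ.2.1 hτ.1, Subgroup.mem_bot] at hz
    refine ⟨h.U, by rw [← h.sylU_coe]; exact h.sylU.not_dvd_index,
      local_two h (by rw [h.card]; norm_num) (by rw [h.card]; norm_num) τ hτ ?_⟩
    intro w w' a y hw hw'
    obtain ⟨w, rfl⟩ := QuotientGroup.mk'_surjective Z w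
    obtain ⟨w', rfl⟩ := QuotientGroup.mk'_surjective Z w'
    have := hf (w := w) (w' := w') hw hw'
    rw [← map_commutatorElement]
    exact (QuotientGroup.eq_one_iff _).2 this
  refine ⟨f, fun k => ?_⟩
  have hk : ((k : Γ) : Γ ⧸ Z) ∈ τ.ker := by rw [hτk]; exact ⟨k, k.2, rfl⟩
  rw [hbot, Subgroup.mem_bot, QuotientGroup.eq_one_iff] at hk
  obtain ⟨x, ⟨p, rfl⟩, hx⟩ := hk
  exact ⟨p, Subtype.ext hx⟩

end CfsgLib.SchurMult.SuzukiEight
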