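import Cfsg.Agent.Lib.SchurMult.SuzukiEight.Data

/-!
The checks on the tables of the fourfold cover of `Sz(8)`.
-/

set_option autoImplicit false
set_option maxHeartbeats 0
set_option maxRecDepth 100000

namespace CfsgLib.SchurMult.SuzukiEight

/-- The letters of a digit pattern. -/
def digits (u : ℕ) : List ℕ := (List.range 6).filter u.testBit

/-- The tables are permutations of the points. -/
noncomputable def permOK : Bool :=
  (List.range 10).all fun i =>
    tables.sameWord [i, 10 + i] [] && tables.sameWord [10 + i, i] [] &&
      CfsgLib.SporRecognition.CosetCert.allBelow 12 2145 (fun u =>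
        Nat.blt (tables.img i u) 2145 && Nat.blt (tables.img (10 + i) u) 2145)

theorem permOK_eq : permOK = true := by decide +kernel

/-- The centre. -/
noncomputable def centreOK : Bool :=
  ([6, 7].all fun z => tables.sameWord [z, z] [] &&
    (List.range 10).all fun i => tables.sameWord [z, i] [i, z]) &&
    tables.sameWord [1, 5] [6, 5, 1] && tables.sameWord [0, 5] [7, 5, 0]

theorem centreOK_eq : centreOK = true := by decide +kernel

/-- The relations of the root group, the torus and the Weyl element. -/
noncomputable def relOK : Bool :=
  ((List.range 6).all fun i => tables.sameWord [i, i] (sqs.getD i [])) &&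
    (cjs.all fun r => tables.sameWord [r.2.1, r.1] (r.1 :: r.2.2)) &&
    ((List.range 6).all fun i => tables.sameWord [8, i] (dcs.getD i [] ++ [8])) &&
    tables.sameWord (List.replicate 7 8) [] && tables.sameWord [9, 9] [] &&
    tables.sameWord [9, 8] (List.replicate 6 8 ++ [9])

theorem relOK_eq : relOK = true := by decide +kernel

/-- The indices in the relations. -/
def shapeOK : Bool :=
  (sqs.length == 6) && (dcs.length == 6) &&
    ((List.range 6).all fun i => (sqs.getD i []).all fun j => decide (i < j ∧ j < 8)) &&
    ((List.range 6).all fun i => (dcs.getD i []).all fun j => decide (j < 8)) &&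
    ((List.range 6).all fun i => (List.range 6).all fun j => !decide (i < j) ||
      cjs.any fun r => r.1 == i && r.2.1 == j && r.2.2.all fun k => decide (i < k ∧ k < 8)) &&
    (bruhat.length == 63) &&
    bruhat.all fun r => (r.1.all fun k => decide (k < 6)) && (r.2.1.all fun k => decide (k < 8))

theorem shapeOK_eq : shapeOK = true := by decide +kernel

/-- The action on the first 65 points. -/
noncomputable def ovoidOK : Bool :=
  ((List.range 10).all fun i => (List.range 65).all fun u => Nat.blt (tables.img i u) 65) &&
    ([6, 7].all fun z => (List.range 65).all fun u => Nat.beq (tables.img z u) u) &&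
    ((List.range 9).all fun i => Nat.beq (tables.img i 64) 64) &&
    Nat.beq (tables.img 8 0) 0 && Nat.beq (tables.img 9 64) 0 && Nat.beq (tables.img 9 0) 64 &&
    ((List.range 64).all fun u => (u == 0) || !Nat.beq (tables.imgW (digits u) 0) 0) &&
    ((List.range 7).all fun k => (k == 0) || !Nat.beq (tables.imgW (List.replicate k 8) 8) 8)

theorem ovoidOK_eq : ovoidOK = true := by decide +kernel

/-- One Bruhat identity. -/
noncomputable def bruhatAt (n : ℕ) : Bool :=
  let r := bruhat.getD (n - 1) ([], [], 0)
  tables.sameWord ([9] ++ digits n ++ [9]) (r.1 ++ [9] ++ r.2.1 ++ List.replicate r.2.2 8)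

end CfsgLib.SchurMult.SuzukiEight
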