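import Cfsg.Agent.Lib.SchurMult.SuzukiEight.Cert

/-!
Bruhat identities 43 to 63 in the cover of `Sz(8)`.
-/

set_option autoImplicit false
set_option maxHeartbeats 0
set_option maxRecDepth 100000

namespace CfsgLib.SchurMult.SuzukiEight

theorem bruhatC : (List.range' 43 21).all bruhatAt = true := by decide +kernel

end CfsgLib.SchurMult.SuzukiEight
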