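import Cfsg.Agent.Lib.SchurMult.SuzukiEight.Normal
import Cfsg.Agent.Lib.SchurMult.SuzukiEight.Ovoid
import Cfsg.Agent.Lib.SchurMult.Criterion

/-!
The map from the cover onto `Sz(8)`.
-/

set_option autoImplicit false
set_option linter.style.haveILetI false
set_option linter.unusedSectionVars false
set_option maxRecDepth 100000

namespace CfsgLib.SchurMult.SuzukiEight

open scoped commutatorElement

noncomputable section

open CfsgLib.Suzuki

theorem ovoid_facts : (∀ i < 10, ∀ u < 65, tables.img i u < 65) ∧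
    (∀ z, z = 6 ∨ z = 7 → ∀ u < 65, tables.img z u = u) ∧ (∀ i < 9, tables.img i 64 = 64) ∧
    tables.img 8 0 = 0 ∧ tables.img 9 64 = 0 ∧ tables.img 9 0 = 64 ∧
    (∀ n < 64, n ≠ 0 → tables.imgW (digits n) 0 ≠ 0) ∧
    (∀ k < 7, k ≠ 0 → tables.imgW (List.replicate k 8) 8 ≠ 8) := by
  have h := ovoidOK_eq
  simp only [ovoidOK, List.all_eq_true, List.mem_range, Bool.and_eq_true, Bool.or_eq_true, List.mem_cons,
    List.not_mem_nil, or_false, Nat.blt_eq, beq_iff_eq, Bool.not_eq_true'] at h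
  obtain ⟨⟨⟨⟨⟨⟨⟨h1, h2⟩, h3⟩, h4⟩, h5⟩, h6⟩, h7⟩, h8⟩ := h
  refine ⟨h1, fun z hz u hu => Nat.eq_of_beq_eq_true (h2 z hz u hu), fun i hi =>
    Nat.eq_of_beq_eq_true (h3 i hi), Nat.eq_of_beq_eq_true h4, Nat.eq_of_beq_eq_true h5,
    Nat.eq_of_beq_eq_true h6, fun n hn h0 e => ?_, fun k hk h0 e => ?_⟩
  · exact absurd ((h7 n hn).resolve_left h0) (by simp [e])
  · exact absurd ((h8 k hk).resolve_left h0) (by simp [e])

/-- A number below 65 among the points. -/
def emb (u : Fin 65) : Fin 2145 := ⟨u, by omega⟩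

theorem keeps {g : Equiv.Perm (Fin 2145)} (hg : g ∈ Cover) (u : Fin 65) : ((g (emb u) : Fin 2145) : ℕ) < 65 := by
  revert u
  refine cover_induction (p := fun g => ∀ u : Fin 65, ((g (emb u) : Fin 2145) : ℕ) < 65)
    (fun u => u.2) (fun i hi g hg u => ?_) hg
  rw [Equiv.Perm.mul_apply, el_apply (by omega)]
  exact ovoid_facts.1 i hi _ (hg u)

/-- The restriction to the first 65 points. -/
def restr : Cover →* Equiv.Perm (Fin 65) where
  toFun g :=
    { toFun := fun u => ⟨(g : Equiv.Perm (Fin 2145)) (emb u), keeps g.2 u⟩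
      invFun := fun u => ⟨(g : Equiv.Perm (Fin 2145))⁻¹ (emb u), keeps (inv_mem g.2) u⟩
      left_inv := fun u => by simp [emb]
      right_inv := fun u => by simp [emb] }
  map_one' := rfl
  map_mul' _ _ := rfl

theorem restr_el {i : ℕ} (hi : i < 10) (u : Fin 65) :
    ((restr ⟨el i, el_mem hi⟩ u : Fin 65) : ℕ) = tables.img i u :=
  el_apply (by omega) _

/-- The action of the model of the generator. -/
def modelT (i u : ℕ) : ℕ :=
  if i < 3 then uT (2 ^ i) 0 u else if i < 6 then uT 0 (2 ^ (i - 3)) u else if i < 8 then u else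
    if i = 8 then dT 2 u else wT u

theorem model_ok : ((List.range 10).all fun i => (List.range 65).all fun u =>
    Nat.beq (tables.img i u) (modelT i u)) = true := by decide +kernel

variable {F : Type*} [Field F] {r : F}

theorem r_ne_zero (hr : Root r) : r ≠ 0 := fun e => by
  have := hr.eq
  rw [e] at this
  simp at this

/-- The generator of `Sz(8)` under a listed element. -/
def pre (hr : Root r) (i : ℕ) : Cfsg.Sz F 1 :=
  if i < 3 then hr.hyp.u (val r (2 ^ i)) (val r 0) else
    if i < 6 then hr.hyp.u (val r 0) (val r (2 ^ (i - 3))) else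
      if i < 8 then 1 else if i = 8 then hr.hyp.d (Units.mk0 r (r_ne_zero hr)) else hr.hyp.w

theorem pre_smul (hr : Root r) {i u : ℕ} (hu : u < 65) :
    pre hr i • Root.point r u = Root.point r (modelT i u) := by
  unfold pre modelT
  split_ifs with h1 h2 h3 h4
  · exact hr.u_point (Nat.pow_lt_pow_right (by norm_num) h1 : 2 ^ i < 2 ^ 3) (by norm_num) hu
  · exact hr.u_point (by norm_num) (Nat.pow_lt_pow_right (by norm_num) (by omega) : 2 ^ (i - 3) < 2 ^ 3) hu
  · rw [one_smul]
  · exact hr.d_point (by norm_num) _ hr.val_two.symm hu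
  · exact hr.w_point hu

/-- The numbering of the ovoid. -/
def num (hr : Root r) : Fin 65 ≃ Cfsg.suzukiOvoid F 1 := Equiv.ofBijective _ hr.point_bijective

/-- `Sz(8)` on the 65 numbers. -/
def perm65 (hr : Root r) : Cfsg.Sz F 1 →* Equiv.Perm (Fin 65) :=
  ((num hr).symm.permCongrHom.toMonoidHom).comp (MulAction.toPermHom (Cfsg.Sz F 1) (Cfsg.suzukiOvoid F 1))

theorem perm65_apply (hr : Root r) (g : Cfsg.Sz F 1) (u : Fin 65) :
    num hr (perm65 hr g u) = g • num hr u := by
  simp [perm65, Equiv.permCongrHom, Equiv.permCongr_apply, MulAction.toPermHom, MulAction.toPerm]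

theorem perm65_injective (hr : Root r) : Function.Injective (perm65 hr) := by
  haveI := hr.hyp.faithfulSMul
  intro g g' e
  refine eq_of_smul_eq_smul (α := Cfsg.suzukiOvoid F 1) fun p => ?_
  obtain ⟨u, rfl⟩ := (num hr).surjective p
  rw [← perm65_apply, ← perm65_apply, e]

theorem perm65_pre (hr : Root r) {i : ℕ} (hi : i < 10) :
    perm65 hr (pre hr i) = restr ⟨el i, el_mem hi⟩ := by
  refine Equiv.ext fun u => (num hr).injective ?_
  rw [perm65_apply]
  have h := model_ok
  simp only [List.all_eq_true, List.mem_range] at h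
  show pre hr i • Root.point r u = Root.point r _
  rw [pre_smul hr u.2, restr_el hi, Nat.eq_of_beq_eq_true (h i hi u u.2)]

theorem restr_mem_range (hr : Root r) (g : Cover) : restr g ∈ (perm65 hr).range := by
  obtain ⟨g, hg⟩ := g
  induction hg using Subgroup.closure_induction with
  | mem x hx =>
    obtain ⟨i, hi, rfl⟩ := hx
    exact ⟨pre hr i, perm65_pre hr hi⟩
  | one => exact ⟨1, by rw [map_one]; exact (map_one restr).symm⟩
  | mul x y hx hy h1 h2 =>
    have := mul_mem h1 h2
    rwa [← map_mul] at this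
  | inv x hx h1 =>
    have := inv_mem h1
    rwa [← map_inv] at this

/-- The covering map. -/
def proj (hr : Root r) : Cover →* Cfsg.Sz F 1 :=
  (MonoidHom.ofInjective (perm65_injective hr)).symm.toMonoidHom.comp
    (restr.codRestrict _ (restr_mem_range hr))

theorem perm65_proj (hr : Root r) (g : Cover) : perm65 hr (proj hr g) = restr g :=
  MonoidHom.apply_ofInjective_symm (perm65_injective hr) ⟨restr g, restr_mem_range hr g⟩

theorem proj_el (hr : Root r) {i : ℕ} (hi : i < 10) : proj hr ⟨el i, el_mem hi⟩ = pre hr i :=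
  perm65_injective hr (by rw [perm65_proj, perm65_pre hr hi])

theorem proj_surjective (hr : Root r) : Function.Surjective (proj hr) := by
  classical
  haveI := hr.hyp.finite
  haveI : CharP F 2 := hr.hyp.charP
  set R := (proj hr).range
  have hpre : ∀ i < 10, pre hr i ∈ R := fun i hi => ⟨_, proj_el hr hi⟩
  have hcase : ∀ i < 8, i = 0 ∨ i = 2 ^ 0 ∨ i = 2 ^ 1 ∨ i = 2 ^ 2 ∨ i = 2 ^ 0 ^^^ 2 ^ 1 ∨
      i = 2 ^ 0 ^^^ 2 ^ 2 ∨ i = 2 ^ 1 ^^^ 2 ^ 2 ∨ i = 2 ^ 0 ^^^ 2 ^ 1 ^^^ 2 ^ 2 := by decide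
  have h0 : hr.hyp.u (val r 0) (val r 0) ∈ R := by rw [hr.val_zero, hr.hyp.u_zero]; exact one_mem _
  have hb1 : ∀ k < 3, hr.hyp.u (val r 0) (val r (2 ^ k)) ∈ R := fun k hk => by
    have := hpre (k + 3) (by omega)
    rwa [pre, if_neg (by omega), if_pos (by omega), Nat.add_sub_cancel] at this
  have ha1 : ∀ k < 3, hr.hyp.u (val r (2 ^ k)) (val r 0) ∈ R := fun k hk => by
    have := hpre k (by omega)
    rwa [pre, if_pos hk] at this
  have hth : th 1 (0 : F) = 0 := th_zero 1
  have hbadd : ∀ i j, hr.hyp.u (val r 0) (val r i) ∈ R → hr.hyp.u (val r 0) (val r j) ∈ R →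
      hr.hyp.u (val r 0) (val r (i ^^^ j)) ∈ R := fun i j hi hj => by
    have := mul_mem hi hj
    rwa [hr.hyp.u_mul, hr.val_zero, hth, zero_mul, add_zero, add_zero, hr.val_add, ← hr.val_zero] at this
  have hb : ∀ i < 8, hr.hyp.u (val r 0) (val r i) ∈ R := fun i hi => by
    rcases hcase i hi with e | e | e | e | e | e | e | e <;> rw [e]
    · exact h0
    · exact hb1 0 (by norm_num)
    · exact hb1 1 (by norm_num)
    · exact hb1 2 (by norm_num)
    · exact hbadd _ _ (hb1 0 (by norm_num)) (hb1 1 (by norm_num))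
    · exact hbadd _ _ (hb1 0 (by norm_num)) (hb1 2 (by norm_num))
    · exact hbadd _ _ (hb1 1 (by norm_num)) (hb1 2 (by norm_num))
    · exact hbadd _ _ (hbadd _ _ (hb1 0 (by norm_num)) (hb1 1 (by norm_num))) (hb1 2 (by norm_num))
  have hmix : ∀ i j, i < 8 → j < 8 → hr.hyp.u (val r i) (val r 0) ∈ R →
      hr.hyp.u (val r i) (val r j) ∈ R := fun i j hi hj h => by
    have := mul_mem h (hb j hj)
    rwa [hr.hyp.u_mul, hr.val_zero, mul_zero, add_zero, zero_add, add_zero] at this
  have haadd : ∀ i j, i < 8 → j < 8 → hr.hyp.u (val r i) (val r 0) ∈ R →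
      hr.hyp.u (val r j) (val r 0) ∈ R → hr.hyp.u (val r (i ^^^ j)) (val r 0) ∈ R := fun i j hi hj h h' => by
    have := mul_mem (mul_mem h h') (hb _ (mulT_lt (thT_lt hi) j))
    rwa [hr.hyp.u_mul, hr.hyp.u_mul, hr.val_zero, mul_zero, add_zero, zero_add, zero_add, add_zero,
      hr.val_th hi, hr.val_mul (thT_lt hi), hr.hyp.add_self, hr.val_add, ← hr.val_zero] at this
  have ha : ∀ i < 8, hr.hyp.u (val r i) (val r 0) ∈ R := fun i hi => by
    rcases hcase i hi with e | e | e | e | e | e | e | e <;> rw [e]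
    · exact h0
    · exact ha1 0 (by norm_num)
    · exact ha1 1 (by norm_num)
    · exact ha1 2 (by norm_num)
    · exact haadd _ _ (by norm_num) (by norm_num) (ha1 0 (by norm_num)) (ha1 1 (by norm_num))
    · exact haadd _ _ (by norm_num) (by norm_num) (ha1 0 (by norm_num)) (ha1 2 (by norm_num))
    · exact haadd _ _ (by norm_num) (by norm_num) (ha1 1 (by norm_num)) (ha1 2 (by norm_num))
    · exact haadd _ _ (xor_lt (by norm_num) (by norm_num)) (by norm_num)
        (haadd _ _ (by norm_num) (by norm_num) (ha1 0 (by norm_num)) (ha1 1 (by norm_num))) (ha1 2 (by norm_num))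
  let vf : Fin 8 → F := fun i => val r i
  have hvb : Function.Bijective vf := by
    refine (Nat.bijective_iff_injective_and_card _).2
      ⟨fun i j e => Fin.ext (hr.val_injective i.2 j.2 e), ?_⟩
    rw [Nat.card_fin, hr.hyp.card]; norm_num
  have hu : ∀ a b, hr.hyp.u a b ∈ R := fun a b => by
    obtain ⟨i, rfl⟩ := hvb.2 a
    obtain ⟨j, rfl⟩ := hvb.2 b
    exact hmix i j i.2 j.2 (ha i i.2)
  have hd : ∀ t, hr.hyp.d t ∈ R := by
    intro t
    have hne : Units.mk0 r (r_ne_zero hr) ≠ 1 := fun e => by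
      have e' : r = 1 := by simpa using congrArg Units.val e
      have := hr.eq
      rw [e'] at this
      simp at this
    haveI : Fact (Nat.Prime 7) := ⟨by norm_num⟩
    have h7 : Nat.card Fˣ = 7 := by rw [hr.hyp.card_units]; norm_num
    obtain ⟨k, rfl⟩ : t ∈ Subgroup.zpowers (Units.mk0 r (r_ne_zero hr)) := by
      rw [zpowers_eq_top_of_prime_card h7 hne]; trivial
    have := zpow_mem (hpre 8 (by norm_num)) k
    rw [pre, if_neg (by omega), if_neg (by omega), if_neg (by omega), if_pos rfl] at this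
    show hr.hyp.dG _ ∈ R
    rw [map_zpow]
    exact this
  have hw : hr.hyp.w ∈ R := by simpa [pre] using hpre 9 (by norm_num)
  intro g
  show g ∈ R
  rcases ovoid_cases (g • oInf F 1) with e | ⟨x, y, e⟩
  · obtain ⟨a, b, t, rfl⟩ := hr.hyp.eq_u_mul_d e
    exact mul_mem (hu a b) (hd t)
  · obtain ⟨a, b, t, he⟩ := hr.hyp.eq_u_mul_d (g := (hr.hyp.u x y * hr.hyp.w)⁻¹ * g)
      (by rw [mul_smul, e, inv_smul_eq_iff, mul_smul, hr.hyp.w_smul_inf, hr.hyp.u_smul_zero])
    rw [show g = hr.hyp.u x y * hr.hyp.w * (hr.hyp.u a b * hr.hyp.d t) by rw [← he, mul_inv_cancel_left]]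
    exact mul_mem (mul_mem (hu x y) hw) (mul_mem (hu a b) (hd t))

theorem U_fix_inf (n : ℕ) : (U n ⟨64, by omega⟩ : Fin 2145) = ⟨64, by omega⟩ := by
  have : ∀ l : List ℕ, (∀ i ∈ l, i < 9) → (lprod el l ⟨64, by omega⟩ : Fin 2145) = ⟨64, by omega⟩ := by
    intro l
    induction l with
    | nil => intro _; rfl
    | cons a l ih =>
      intro h
      rw [lprod, Equiv.Perm.mul_apply, ih fun i hi => h i (List.mem_cons_of_mem _ hi)]
      exact Fin.ext (by rw [el_apply (by have := h a (by simp); omega)]; exact ovoid_facts.2.2.1 a (h a (by simp)))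
  exact this _ fun i hi => by have := digits_lt hi; omega

theorem InB.fix_inf {b : Equiv.Perm (Fin 2145)} (hb : InB b) :
    (b ⟨64, by omega⟩ : Fin 2145) = ⟨64, by omega⟩ := by
  obtain ⟨v, hv, k, rfl⟩ := hb
  have hel : ∀ i < 9, (el i ⟨64, by omega⟩ : Fin 2145) = ⟨64, by omega⟩ := fun i hi =>
    Fin.ext (by rw [el_apply (by omega)]; exact ovoid_facts.2.2.1 i hi)
  have hd : el 8 ^ k ∈ MulAction.stabilizer (Equiv.Perm (Fin 2145)) (⟨64, by omega⟩ : Fin 2145) :=
    pow_mem (MulAction.mem_stabilizer_iff.2 (hel 8 (by norm_num))) k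
  have hv' : v ∈ MulAction.stabilizer (Equiv.Perm (Fin 2145)) (⟨64, by omega⟩ : Fin 2145) := by
    refine (Subgroup.closure_le _).2 ?_ hv
    rintro _ ⟨i, ⟨-, hi⟩, rfl⟩
    exact MulAction.mem_stabilizer_iff.2 (hel i (by omega))
  exact MulAction.mem_stabilizer_iff.1 (mul_mem hv' hd)

theorem centre_fix {z : Equiv.Perm (Fin 2145)} (hz : z ∈ K 6) (u : Fin 65) : z (emb u) = emb u := by
  have h : ∀ i, i = 6 ∨ i = 7 → el i (emb u) = emb u := fun i hi =>
    Fin.ext (by rw [el_apply (by omega)]; exact ovoid_facts.2.1 i hi u u.2)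
  rcases mem_K_centre hz with rfl | rfl | rfl | rfl
  · rfl
  · exact h 6 (Or.inl rfl)
  · exact h 7 (Or.inr rfl)
  · rw [Equiv.Perm.mul_apply, h 7 (Or.inr rfl), h 6 (Or.inl rfl)]

theorem mem_centre_of_fix {g : Equiv.Perm (Fin 2145)} (hg : g ∈ Cover)
    (hfix : ∀ u : Fin 65, g (emb u) = emb u) : g ∈ K 6 := by
  rcases form_cover hg with ⟨v, hv, k, rfl⟩ | ⟨n, hn, b, hb, rfl⟩
  · obtain ⟨n, hn, z, hz, rfl⟩ := form_V hv
    have h0 : (el 8 ^ k) (emb 0) = emb 0 := by
      refine MulAction.mem_stabilizer_iff.1 (pow_mem ((MulAction.mem_stabilizer_iff (G := Equiv.Perm (Fin 2145))).2 ?_) k)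
      exact Fin.ext (by rw [Equiv.Perm.smul_def, el_apply (by norm_num)]; exact ovoid_facts.2.2.2.1)
    have h1 := hfix 0
    rw [Equiv.Perm.mul_apply, h0, Equiv.Perm.mul_apply, centre_fix hz] at h1
    obtain rfl : n = 0 := by
      by_contra hn0
      refine ovoid_facts.2.2.2.2.2.2.1 n hn hn0 ?_
      have h2 : ((U n (emb 0) : Fin 2145) : ℕ) = tables.imgW (digits n) 0 :=
        lprod_apply (fun i hi => by have := digits_lt hi; omega) _
      rw [h1] at h2
      exact h2.symm
    rw [U_zero, one_mul] at hfix ⊢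
    obtain ⟨hd7, -⟩ : el 8 ^ 7 = 1 ∧ True := ⟨rel_facts.2.2.2.1, trivial⟩
    rw [pow_eq_pow_mod k hd7] at hfix ⊢
    rcases eq_or_ne (k % 7) 0 with e | e
    · rw [e, pow_zero, mul_one]; exact hz
    exfalso
    refine ovoid_facts.2.2.2.2.2.2.2 (k % 7) (Nat.mod_lt _ (by norm_num)) e ?_
    have h3 := hfix 8
    rw [Equiv.Perm.mul_apply] at h3
    have h4 : (el 8 ^ (k % 7)) (emb 8) = emb 8 := z.injective (h3.trans (centre_fix hz 8).symm)
    rw [← lprod_replicate] at h4
    have h5 := lprod_apply (l := List.replicate (k % 7) 8)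
      (fun i hi => by rw [List.eq_of_mem_replicate hi]; norm_num) (emb 8)
    rw [h4] at h5
    exact h5.symm
  · exfalso
    have h1 := hfix ⟨64, by norm_num⟩
    rw [Equiv.Perm.mul_apply, Equiv.Perm.mul_apply] at h1
    have e : b (emb ⟨64, by norm_num⟩) = emb ⟨64, by norm_num⟩ := hb.fix_inf
    rw [e] at h1
    have h2 : el 9 (emb ⟨64, by norm_num⟩) = emb ⟨64, by norm_num⟩ :=
      (U n).injective (h1.trans (U_fix_inf n).symm)
    have h3 := congrArg Fin.val h2
    rw [el_apply (by norm_num)] at h3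
    have h4 : tables.img 9 64 = 64 := h3
    rw [ovoid_facts.2.2.2.2.1] at h4
    omega

/-- The group `⟨el 6, el 7⟩` as pairs. -/
def centreHom : Multiplicative (ZMod 2 × ZMod 2) →* Cover where
  toFun p := ⟨el 6 ^ (Multiplicative.toAdd p).1.val * el 7 ^ (Multiplicative.toAdd p).2.val,
    mul_mem (pow_mem (el_mem (by norm_num)) _) (pow_mem (el_mem (by norm_num)) _)⟩
  map_one' := Subtype.ext (by simp)
  map_mul' p q := Subtype.ext (by
    have h6 : el 6 ^ 2 = 1 := by rw [sq]; exact (centre_facts.1 6 (Or.inl rfl)).1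
    have h7 : el 7 ^ 2 = 1 := by rw [sq]; exact (centre_facts.1 7 (Or.inr rfl)).1
    have hc : ∀ a b : ℕ, Commute (el 7 ^ a) (el 6 ^ b) := fun a b =>
      Commute.pow_pow (commute_centre (Or.inr rfl) (by norm_num : (6 : ℕ) < 10)) a b
    show el 6 ^ _ * el 7 ^ _ = el 6 ^ _ * el 7 ^ _ * (el 6 ^ _ * el 7 ^ _)
    rw [toAdd_mul, Prod.fst_add, Prod.snd_add, ZMod.val_add, ZMod.val_add, ← pow_eq_pow_mod _ h6,
      ← pow_eq_pow_mod _ h7, pow_add, pow_add]
    simp only [mul_assoc]
    rw [← mul_assoc (el 7 ^ (Multiplicative.toAdd p).2.val) (el 6 ^ (Multiplicative.toAdd q).1.val),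
      (hc _ _).eq, mul_assoc])

theorem centre_nontrivial : el 6 ≠ 1 ∧ el 7 ≠ 1 ∧ el 6 * el 7 ≠ 1 := by
  have h : (!Nat.beq (tables.img 6 1105) 1105 && !Nat.beq (tables.img 7 65) 65 &&
      !Nat.beq (tables.imgW [6, 7] 65) 65) = true := by decide +kernel
  simp only [Bool.and_eq_true, Bool.not_eq_true'] at h
  refine ⟨fun e => ?_, fun e => ?_, fun e => ?_⟩
  · have := el_apply (show 6 < 20 by norm_num) ⟨1105, by norm_num⟩
    rw [e] at this
    simp at this
    simp [← this] at h
  · have := el_apply (show 7 < 20 by norm_num) ⟨65, by norm_num⟩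
    rw [e] at this
    simp at this
    simp [← this] at h
  · have := lprod_apply (l := [6, 7]) (by simp) ⟨65, by norm_num⟩
    rw [show lprod el [6, 7] = 1 by rw [lprod, lprod, lprod, mul_one, e]] at this
    simp at this
    simp [← this] at h

theorem centreHom_injective : Function.Injective centreHom := by
  refine (injective_iff_map_eq_one _).2 fun p hp => ?_
  have h : el 6 ^ (Multiplicative.toAdd p).1.val * el 7 ^ (Multiplicative.toAdd p).2.val = 1 :=
    congrArg Subtype.val hp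
  obtain ⟨h6, h7, h67⟩ := centre_nontrivial
  have hc : ∀ a : ZMod 2, a = 0 ∨ a = 1 := by decide
  apply Multiplicative.toAdd.injective
  rcases hc (Multiplicative.toAdd p).1 with e1 | e1 <;> rcases hc (Multiplicative.toAdd p).2 with e2 | e2 <;>
    rw [e1, e2] at h
  · exact Prod.ext e1 e2
  · simp [ZMod.val_one, h7] at h
  · simp [ZMod.val_one, h6] at h
  · simp [ZMod.val_one, h67] at h

theorem centreHom_range (hr : Root r) : centreHom.range = (proj hr).ker := by
  ext g
  constructor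
  · rintro ⟨p, rfl⟩
    rw [MonoidHom.mem_ker]
    refine perm65_injective hr ?_
    rw [perm65_proj, map_one]
    refine Equiv.ext fun u => Fin.ext ?_
    have hm : (centreHom p : Equiv.Perm (Fin 2145)) ∈ K 6 :=
      mul_mem (pow_mem (el_mem_K le_rfl (by norm_num)) _) (pow_mem (el_mem_K (by norm_num) (by norm_num)) _)
    exact congrArg (fun x : Fin 2145 => (x : ℕ)) (centre_fix hm u)
  · intro hg
    rw [MonoidHom.mem_ker] at hg
    have hm : (g : Equiv.Perm (Fin 2145)) ∈ K 6 := mem_centre_of_fix g.2 fun u => by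
      have := congrArg (fun σ => ((σ u : Fin 65) : ℕ)) (perm65_proj hr g)
      simp only [hg, map_one, Equiv.Perm.one_apply] at this
      exact Fin.ext this.symm
    rcases mem_K_centre hm with e | e | e | e
    · exact ⟨1, Subtype.ext (by rw [map_one, e]; rfl)⟩
    · exact ⟨Multiplicative.ofAdd (1, 0), Subtype.ext (by simp [centreHom, e, ZMod.val_one])⟩
    · exact ⟨Multiplicative.ofAdd (0, 1), Subtype.ext (by simp [centreHom, e, ZMod.val_one])⟩
    · exact ⟨Multiplicative.ofAdd (1, 1), Subtype.ext (by simp [centreHom, e, ZMod.val_one])⟩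

theorem proj_stem (hr : Root r) : Cfsg.IsStemExtension (proj hr) := by
  refine ⟨proj_surjective hr, ?_, ?_⟩ <;> rw [← centreHom_range hr] <;> rintro _ ⟨p, rfl⟩
  · rw [Subgroup.mem_center_iff]
    intro g
    refine Subtype.ext ?_
    exact (((commute_centre_cover (Or.inl rfl) g.2).pow_left _).mul_left
      ((commute_centre_cover (Or.inr rfl) g.2).pow_left _)).symm.eq
  · have hcomm : ∀ (z a b : ℕ) (hz : z < 10), a < 10 → b < 10 → el a * el b = el z * el b * el a →
        (⟨el z, el_mem hz⟩ : Cover) ∈ commutator Cover := fun z a b hz ha hb e => by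
      rw [commutator_def]
      have : (⟨el z, el_mem hz⟩ : Cover) = ⁅(⟨el a, el_mem ha⟩ : Cover), ⟨el b, el_mem hb⟩⁆ := by
        refine Subtype.ext ?_
        show el z = el a * el b * (el a)⁻¹ * (el b)⁻¹
        rw [e]; group
      rw [this]
      exact Subgroup.commutator_mem_commutator trivial trivial
    have hsplit : centreHom p = (⟨el 6, el_mem (by norm_num)⟩ : Cover) ^ (Multiplicative.toAdd p).1.val *
        (⟨el 7, el_mem (by norm_num)⟩ : Cover) ^ (Multiplicative.toAdd p).2.val := rfl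
    rw [hsplit]
    exact mul_mem (pow_mem (hcomm 6 1 5 (by norm_num) (by norm_num) (by norm_num) centre_facts.2.1) _)
      (pow_mem (hcomm 7 0 5 (by norm_num) (by norm_num) (by norm_num) centre_facts.2.2) _)

/-- Stem extensions may be composed with an isomorphism onto the extension group. -/
theorem isStemExtension_comp_domain {Γ Γ' G : Type*} [Group Γ] [Group Γ'] [Group G] {σ : Γ →* G}
    (hσ : Cfsg.IsStemExtension σ) (e : Γ' ≃* Γ) : Cfsg.IsStemExtension (σ.comp e.toMonoidHom) := by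
  refine ⟨hσ.1.comp e.surjective, fun x hx => ?_, fun x hx => ?_⟩
  · rw [Subgroup.mem_center_iff]
    intro g
    apply e.injective
    rw [map_mul, map_mul]
    exact Subgroup.mem_center_iff.1 (hσ.2.1 (MonoidHom.mem_ker.1 hx : σ (e x) = 1)) (e g)
  · have h1 : e x ∈ commutator Γ := hσ.2.2 (MonoidHom.mem_ker.1 hx : σ (e x) = 1)
    have h2 : (commutator Γ).map e.symm.toMonoidHom ≤ commutator Γ' := by
      rw [commutator_def, commutator_def, Subgroup.map_commutator]
      exact Subgroup.commutator_mono le_top le_top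
    simpa using h2 ⟨e x, h1, rfl⟩

universe u

/-- A stem extension of `Sz(8)` with kernel a four group. -/
theorem exists_cover {F : Type u} [Field F] (h : Hyp F 1) :
    ∃ (Γ : Type u) (_ : Group Γ) (_ : Finite Γ) (σ : Γ →* Cfsg.Sz F 1),
      Cfsg.IsStemExtension σ ∧ Nonempty (σ.ker ≃* Multiplicative (ZMod 2 × ZMod 2)) := by
  obtain ⟨r, hr⟩ := exists_root h
  refine ⟨ULift.{u} Cover, inferInstance, inferInstance,
    (proj hr).comp MulEquiv.ulift.toMonoidHom, ?_, ?_⟩
  · exact isStemExtension_comp_domain (proj_stem hr) MulEquiv.ulift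
  · refine ⟨(MulEquiv.ofBijective ((((MulEquiv.ulift (α := Cover)).symm.toMonoidHom).comp centreHom).codRestrict
      _ (fun p => ?_)) ⟨fun p q e => centreHom_injective (ULift.up_injective (congrArg Subtype.val e)),
        fun k => ?_⟩).symm⟩
    · rw [MonoidHom.mem_ker]
      exact (MonoidHom.mem_ker.1 ((centreHom_range hr).le ⟨p, rfl⟩) :)
    · obtain ⟨p, hp⟩ := (centreHom_range hr).ge (show k.1.down ∈ (proj hr).ker from k.2)
      exact ⟨p, Subtype.ext (ULift.ext _ _ hp)⟩

end

end CfsgLib.SchurMult.SuzukiEight
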