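import Cfsg.Agent.Lib.SchurMult.SuzukiEight.CertA
import Cfsg.Agent.Lib.SchurMult.SuzukiEight.CertB
import Cfsg.Agent.Lib.SchurMult.SuzukiEight.CertC

/-!
The normal form in the fourfold cover of `Sz(8)`: an element is `u z dᵏ` or `u w v dᵏ`.
-/

set_option autoImplicit false
set_option linter.style.haveILetI false

namespace CfsgLib.SchurMult.SuzukiEight

noncomputable section

open CfsgLib.SporRecognition.CosetCert (allBelow_spec)

theorem permSpec {i : ℕ} (hi : i < 10) :
    (∀ u < 2145, tables.imgW [i, 10 + i] u = u ∧ tables.imgW [10 + i, i] u = u) ∧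
      ∀ u < 2145, tables.img i u < 2145 ∧ tables.img (10 + i) u < 2145 := by
  have h := permOK_eq
  simp only [permOK, List.all_eq_true, List.mem_range, Bool.and_eq_true] at h
  obtain ⟨⟨h1, h2⟩, h3⟩ := h i hi
  simp only [PermCert.Tables.sameWord, Bool.and_eq_true] at h1 h2
  refine ⟨fun u hu => ⟨Nat.eq_of_beq_eq_true (allBelow_spec h1.2 u hu),
    Nat.eq_of_beq_eq_true (allBelow_spec h2.2 u hu)⟩, fun u hu => ?_⟩
  have := allBelow_spec h3 u hu
  simpa [Nat.blt_eq] using this

/-- A listed element as a permutation. -/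
def permEl (i : ℕ) (hi : i < 10) : Equiv.Perm (Fin 2145) where
  toFun u := ⟨tables.img i u, ((permSpec hi).2 u u.2).1⟩
  invFun u := ⟨tables.img (10 + i) u, ((permSpec hi).2 u u.2).2⟩
  left_inv u := Fin.ext (((permSpec hi).1 u u.2).2)
  right_inv u := Fin.ext (((permSpec hi).1 u u.2).1)

/-- The listed elements and their inverses. -/
def el (i : ℕ) : Equiv.Perm (Fin 2145) :=
  if h : i < 10 then permEl i h else if h' : i - 10 < 10 then (permEl (i - 10) h').symm else 1

theorem length_ts : tables.ts.length = 20 := rfl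

theorem realises : tables.Realises (MonoidHom.id (Equiv.Perm (Fin 2145))) el where
  deg := rfl
  inj := Function.injective_id
  img i hi u := by
    rw [length_ts] at hi
    rw [MonoidHom.id_apply, el]
    by_cases h : i < 10
    · rw [dif_pos h]; rfl
    · rw [dif_neg h, dif_pos (show i - 10 < 10 by omega)]
      show tables.img (10 + (i - 10)) u = _
      rw [show 10 + (i - 10) = i by omega]

theorem el_apply {i : ℕ} (hi : i < 20) (u : Fin 2145) : ((el i u : Fin 2145) : ℕ) = tables.img i u :=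
  realises.img i (by rw [length_ts]; exact hi) u

theorem lprod_apply {l : List ℕ} (hl : ∀ i ∈ l, i < 20) (u : Fin 2145) :
    ((lprod el l u : Fin 2145) : ℕ) = tables.imgW l u :=
  realises.imgW l (fun i hi => by rw [length_ts]; exact hl i hi) u

theorem eq_of_same {w w' : List ℕ} (h : tables.sameWord w w' = true) : lprod el w = lprod el w' :=
  realises.eq_of_sameWord h

theorem lprod_replicate (i : ℕ) : ∀ k, lprod el (List.replicate k i) = el i ^ k
  | 0 => rfl
  | k + 1 => by rw [List.replicate_succ, lprod, lprod_replicate i k, pow_succ']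

/-- The covering group. -/
def Cover : Subgroup (Equiv.Perm (Fin 2145)) := Subgroup.closure (el '' Set.Iio 10)

theorem el_mem {i : ℕ} (hi : i < 10) : el i ∈ Cover := Subgroup.subset_closure ⟨i, hi, rfl⟩

theorem cover_induction {p : Equiv.Perm (Fin 2145) → Prop} (h1 : p 1)
    (hmul : ∀ i < 10, ∀ g, p g → p (el i * g)) {g : Equiv.Perm (Fin 2145)} (hg : g ∈ Cover) : p g := by
  rw [Cover, ← Subgroup.mem_toSubmonoid, Subgroup.closure_toSubmonoid_of_finite] at hg
  induction hg using Submonoid.closure_induction_left with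
  | one => exact h1
  | mul_left u hu y _ ih =>
    obtain ⟨i, hi, rfl⟩ := hu
    exact hmul i hi y ih

theorem centre_facts : (∀ z, z = 6 ∨ z = 7 → el z * el z = 1 ∧ ∀ i < 10, el z * el i = el i * el z) ∧
    el 1 * el 5 = el 6 * el 5 * el 1 ∧ el 0 * el 5 = el 7 * el 5 * el 0 := by
  have h := centreOK_eq
  simp only [centreOK, List.all_eq_true, List.mem_range, Bool.and_eq_true, List.mem_cons,
    List.not_mem_nil, or_false] at h
  obtain ⟨⟨hz, h15⟩, h05⟩ := h
  refine ⟨fun z hz' => ⟨?_, fun i hi => ?_⟩, ?_, ?_⟩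
  · simpa [lprod] using eq_of_same (hz z hz').1
  · simpa [lprod] using eq_of_same ((hz z hz').2 i hi)
  · simpa [lprod, mul_assoc] using eq_of_same h15
  · simpa [lprod, mul_assoc] using eq_of_same h05

theorem rel_facts : (∀ i < 6, el i * el i = lprod el (sqs.getD i [])) ∧
    (∀ r ∈ cjs, el r.2.1 * el r.1 = el r.1 * lprod el r.2.2) ∧
    (∀ i < 6, el 8 * el i = lprod el (dcs.getD i []) * el 8) ∧
    el 8 ^ 7 = 1 ∧ el 9 * el 9 = 1 ∧ el 9 * el 8 = el 8 ^ 6 * el 9 := by
  have h := relOK_eq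
  simp only [relOK, List.all_eq_true, List.mem_range, Bool.and_eq_true] at h
  obtain ⟨⟨⟨⟨⟨h1, h2⟩, h3⟩, h4⟩, h5⟩, h6⟩ := h
  refine ⟨fun i hi => ?_, fun r hr => ?_, fun i hi => ?_, ?_, ?_, ?_⟩
  · simpa [lprod] using eq_of_same (h1 i hi)
  · simpa [lprod] using eq_of_same (h2 r hr)
  · simpa [lprod, lprod_append] using eq_of_same (h3 i hi)
  · have := eq_of_same h4
    rwa [lprod_replicate] at this
  · simpa [lprod] using eq_of_same h5
  · have := eq_of_same h6
    rw [lprod_append, lprod_replicate] at this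
    simpa [lprod] using this

theorem shape_facts : (∀ i < 6, ∀ j ∈ sqs.getD i [], i < j ∧ j < 8) ∧
    (∀ i < 6, ∀ j ∈ dcs.getD i [], j < 8) ∧
    (∀ i j, i < j → j < 6 → ∃ r ∈ cjs, r.1 = i ∧ r.2.1 = j ∧ ∀ k ∈ r.2.2, i < k ∧ k < 8) ∧
    bruhat.length = 63 ∧
    ∀ r ∈ bruhat, (∀ k ∈ r.1, k < 6) ∧ ∀ k ∈ r.2.1, k < 8 := by
  have h := shapeOK_eq
  simp only [shapeOK, List.all_eq_true, List.mem_range, Bool.and_eq_true, beq_iff_eq, decide_eq_true_eq,
    Bool.or_eq_true, List.any_eq_true, Bool.not_eq_true', decide_eq_false_iff_not] at h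
  obtain ⟨⟨⟨⟨⟨-, h1⟩, h2⟩, h3⟩, h4⟩, h5⟩ := h
  refine ⟨h1, h2, fun i j hij hj => ?_, h4, h5⟩
  rcases h3 i (by omega) j hj with h | ⟨r, hr, ⟨hr1, hr2⟩, hr3⟩
  · exact absurd hij h
  · exact ⟨r, hr, hr1, hr2, hr3⟩

/-- The series of the preimage of the root group. -/
def K (i : ℕ) : Subgroup (Equiv.Perm (Fin 2145)) := Subgroup.closure (el '' Set.Ico i 8)

theorem el_mem_K {i j : ℕ} (h1 : i ≤ j) (h2 : j < 8) : el j ∈ K i :=
  Subgroup.subset_closure ⟨j, ⟨h1, h2⟩, rfl⟩

theorem lprod_mem_K {i : ℕ} {l : List ℕ} (hl : ∀ j ∈ l, i ≤ j ∧ j < 8) : lprod el l ∈ K i :=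
  PermCert.Tables.lprod_mem fun j hj => el_mem_K (hl j hj).1 (hl j hj).2

theorem commute_centre {z i : ℕ} (hz : z = 6 ∨ z = 7) (hi : i < 10) : Commute (el z) (el i) :=
  (centre_facts.1 z hz).2 i hi

theorem commute_centre_cover {z : ℕ} (hz : z = 6 ∨ z = 7) {g : Equiv.Perm (Fin 2145)} (hg : g ∈ Cover) :
    Commute (el z) g :=
  cover_induction (p := fun g => Commute (el z) g) (Commute.one_right _)
    (fun _ hi _ h => (commute_centre hz hi).mul_right h) hg

/-- An element normalising a subgroup, with its square in it, adds one coset. -/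
theorem mem_or_mem_mul_of_step {G : Type*} [Group G] [Finite G] {S : Set G} {x g : G}
    (hn : ∀ s ∈ S, x⁻¹ * s * x ∈ Subgroup.closure S) (hsq : x * x ∈ Subgroup.closure S)
    (hg : g ∈ Subgroup.closure (insert x S)) :
    ∃ k ∈ Subgroup.closure S, g = k ∨ g = x * k := by
  have hconj : ∀ k ∈ Subgroup.closure S, x⁻¹ * k * x ∈ Subgroup.closure S := fun k hk => by
    have : Subgroup.closure S ≤ (Subgroup.closure S).comap (MulAut.conj x⁻¹).toMonoidHom :=
      (Subgroup.closure_le _).2 fun s hs => by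
        simpa [Subgroup.mem_comap] using hn s hs
    simpa [Subgroup.mem_comap] using this hk
  rw [← Subgroup.mem_toSubmonoid, Subgroup.closure_toSubmonoid_of_finite] at hg
  induction hg using Submonoid.closure_induction_left with
  | one => exact ⟨1, one_mem _, Or.inl rfl⟩
  | mul_left u hu y _ ih =>
    obtain ⟨k, hk, h | h⟩ := ih <;> subst h <;> rcases Set.mem_insert_iff.1 hu with rfl | hu'
    · exact ⟨y, hk, Or.inr rfl⟩
    · exact ⟨u * y, mul_mem (Subgroup.subset_closure hu') hk, Or.inl rfl⟩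
    · exact ⟨u * u * k, mul_mem hsq hk, Or.inl (by rw [mul_assoc])⟩
    · exact ⟨x⁻¹ * u * x * k, mul_mem (hconj u (Subgroup.subset_closure hu')) hk, Or.inr (by group)⟩

theorem mem_K_centre {g : Equiv.Perm (Fin 2145)} (hg : g ∈ K 6) :
    g = 1 ∨ g = el 6 ∨ g = el 7 ∨ g = el 6 * el 7 := by
  have h6 := centre_facts.1 6 (Or.inl rfl)
  have h7 := centre_facts.1 7 (Or.inr rfl)
  have hc : el 7 * el 6 = el 6 * el 7 := h7.2 6 (by norm_num)
  rw [K, ← Subgroup.mem_toSubmonoid, Subgroup.closure_toSubmonoid_of_finite] at hg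
  induction hg using Submonoid.closure_induction_left with
  | one => exact Or.inl rfl
  | mul_left u hu y _ ih =>
    obtain ⟨i, ⟨hi1, hi2⟩, rfl⟩ := hu
    obtain rfl | rfl : i = 6 ∨ i = 7 := by omega
    · rcases ih with rfl | rfl | rfl | rfl
      · simp
      · simp [h6.1]
      · simp
      · simp [← mul_assoc, h6.1]
    · rcases ih with rfl | rfl | rfl | rfl
      · simp
      · simp [hc]
      · simp [h7.1]
      · rw [← mul_assoc, hc, mul_assoc, h7.1, mul_one]; simp

theorem form_K (i : ℕ) (hi : i ≤ 6) : ∀ g ∈ K i,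
    ∃ ws, ws.Sublist (List.range' i (6 - i)) ∧ ∃ z ∈ K 6, g = lprod el ws * z := by
  obtain ⟨d, rfl⟩ : ∃ d, i = 6 - d := ⟨6 - i, by omega⟩
  induction d with
  | zero => exact fun g hg => ⟨[], List.nil_sublist _, g, hg, (one_mul g).symm⟩
  | succ d ih =>
    intro g hg
    by_cases hd : 6 ≤ d
    · rw [show 6 - (d + 1) = 6 - d by omega] at hg ⊢
      exact ih (by omega) g hg
    obtain ⟨hsq, -, hcj, -, -⟩ := shape_facts
    set j := 6 - (d + 1) with hj
    have hj6 : j < 6 := by omega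
    have hj1 : 6 - d = j + 1 := by omega
    have hset : el '' Set.Ico j 8 = insert (el j) (el '' Set.Ico (j + 1) 8) := by
      rw [← Set.image_insert_eq]
      congr 1
      ext k
      simp only [Set.mem_Ico, Set.mem_insert_iff]
      omega
    rw [K, hset] at hg
    obtain ⟨k, hk, hkg⟩ := mem_or_mem_mul_of_step
      (fun s hs => by
        obtain ⟨l, ⟨hl1, hl2⟩, rfl⟩ := hs
        rcases Nat.lt_or_ge l 6 with hl | hl
        · obtain ⟨r, hr, hr1, hr2, hr3⟩ := hcj j l hl1 hl
          have := rel_facts.2.1 r hr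
          rw [hr1, hr2] at this
          rw [mul_assoc, this, inv_mul_cancel_left]
          exact lprod_mem_K fun a ha => ⟨(hr3 a ha).1, (hr3 a ha).2⟩
        · rw [mul_assoc, (commute_centre (i := j) (by omega : l = 6 ∨ l = 7) (by omega)).eq,
            inv_mul_cancel_left]
          exact el_mem_K (by omega) hl2)
      (by
        rw [rel_facts.1 j hj6]
        exact lprod_mem_K fun a ha => ⟨(hsq j hj6 a ha).1, (hsq j hj6 a ha).2⟩) hg
    obtain ⟨ws, hws, z, hz, rfl⟩ := ih (by omega) k (by rw [hj1]; exact hk)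
    have hr : List.range' j (6 - j) = j :: List.range' (6 - d) (6 - (6 - d)) := by
      rw [show 6 - j = (6 - (6 - d)) + 1 by omega, List.range'_succ, hj1]
    rw [hr]
    rcases hkg with rfl | rfl
    · exact ⟨ws, hws.cons _, z, hz, rfl⟩
    · exact ⟨j :: ws, hws.cons_cons _, z, hz, by rw [lprod, mul_assoc]⟩

/-- The root lift with the given digits. -/
def U (n : ℕ) : Equiv.Perm (Fin 2145) := lprod el (digits n)

theorem digits_lt {n i : ℕ} (hi : i ∈ digits n) : i < 6 :=
  List.mem_range.1 (List.mem_filter.1 hi).1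

theorem U_mem (n : ℕ) : U n ∈ K 0 :=
  lprod_mem_K fun _ hi => ⟨Nat.zero_le _, by have := digits_lt hi; omega⟩

theorem U_zero : U 0 = 1 := rfl

theorem form_V {g : Equiv.Perm (Fin 2145)} (hg : g ∈ K 0) : ∃ n < 64, ∃ z ∈ K 6, g = U n * z := by
  obtain ⟨ws, hws, z, hz, rfl⟩ := form_K 0 (by norm_num) g hg
  have hd : (List.range' 0 6).sublists.all (fun ws => (List.range 64).any fun n => digits n == ws) = true := by
    decide +kernel
  simp only [List.all_eq_true, List.any_eq_true, List.mem_range, beq_iff_eq, List.mem_sublists] at hd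
  obtain ⟨n, hn, rfl⟩ := hd ws hws
  exact ⟨n, hn, z, hz, rfl⟩

theorem K_le_cover (i : ℕ) : K i ≤ Cover :=
  Subgroup.closure_mono (Set.image_mono fun _ hk => Set.mem_Iio.2 (by have := hk.2; omega))

theorem conj_d {v : Equiv.Perm (Fin 2145)} (hv : v ∈ K 0) : el 8 * v * (el 8)⁻¹ ∈ K 0 := by
  have : K 0 ≤ (K 0).comap (MulAut.conj (el 8)).toMonoidHom := (Subgroup.closure_le _).2 fun s hs => by
    obtain ⟨i, ⟨-, hi⟩, rfl⟩ := hs
    show el 8 * el i * (el 8)⁻¹ ∈ K 0
    rcases Nat.lt_or_ge i 6 with h | h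
    · rw [rel_facts.2.2.1 i h, mul_inv_cancel_right]
      exact lprod_mem_K fun a ha => ⟨Nat.zero_le _, shape_facts.2.1 i h a ha⟩
    · rw [← (commute_centre (i := 8) (by omega : i = 6 ∨ i = 7) (by norm_num)).eq, mul_inv_cancel_right]
      exact el_mem_K (Nat.zero_le _) hi
  exact this hv

/-- The preimage of the Borel subgroup, as a set. -/
def InB (g : Equiv.Perm (Fin 2145)) : Prop := ∃ v ∈ K 0, ∃ k, g = v * el 8 ^ k

theorem InB.mul_left {v b : Equiv.Perm (Fin 2145)} (hv : v ∈ K 0) (hb : InB b) : InB (v * b) := by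
  obtain ⟨v', hv', k, rfl⟩ := hb
  exact ⟨v * v', mul_mem hv hv', k, (mul_assoc _ _ _).symm⟩

theorem InB.d_mul {b : Equiv.Perm (Fin 2145)} (hb : InB b) : InB (el 8 * b) := by
  obtain ⟨v', hv', k, rfl⟩ := hb
  exact ⟨el 8 * v' * (el 8)⁻¹, conj_d hv', k + 1, by rw [pow_succ']; group⟩

theorem InB.dpow_mul {b : Equiv.Perm (Fin 2145)} (hb : InB b) : ∀ j : ℕ, InB (el 8 ^ j * b)
  | 0 => by simpa using hb
  | j + 1 => by rw [pow_succ', mul_assoc]; exact (InB.dpow_mul hb j).d_mul

theorem bruhat_rel {n : ℕ} (h0 : n ≠ 0) (hn : n < 64) :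
    ∃ u ∈ K 0, ∃ v ∈ K 0, ∃ k, el 9 * U n * el 9 = u * el 9 * (v * el 8 ^ k) := by
  have hmem : bruhatAt n = true := by
    rcases Nat.lt_or_ge n 22 with h | h
    · exact List.all_eq_true.1 bruhatA n (List.mem_range'_1.2 ⟨by omega, by omega⟩)
    rcases Nat.lt_or_ge n 43 with h' | h'
    · exact List.all_eq_true.1 bruhatB n (List.mem_range'_1.2 ⟨by omega, by omega⟩)
    · exact List.all_eq_true.1 bruhatC n (List.mem_range'_1.2 ⟨by omega, by omega⟩)
  obtain ⟨-, -, -, hlen, hb⟩ := shape_facts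
  set r := bruhat.getD (n - 1) ([], [], 0) with hr
  have hr' : r ∈ bruhat := by
    rw [hr, List.getD_eq_getElem _ _ (by omega)]
    exact List.getElem_mem _
  refine ⟨lprod el r.1, lprod_mem_K fun a ha => ⟨Nat.zero_le _, by have := (hb r hr').1 a ha; omega⟩,
    lprod el r.2.1, lprod_mem_K fun a ha => ⟨Nat.zero_le _, (hb r hr').2 a ha⟩, r.2.2, ?_⟩
  have := eq_of_same hmem
  rw [← hr] at this
  simp only [lprod_append, lprod_replicate, lprod, mul_one, mul_assoc] at this
  simpa [mul_assoc, U] using this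

/-- The two Bruhat cells. -/
def Form (g : Equiv.Perm (Fin 2145)) : Prop := InB g ∨ ∃ n < 64, ∃ b, InB b ∧ g = U n * el 9 * b

theorem form_mul_V {v b : Equiv.Perm (Fin 2145)} (hv : v ∈ K 0) (hb : InB b) : Form (v * el 9 * b) := by
  obtain ⟨n, hn, z, hz, rfl⟩ := form_V hv
  refine Or.inr ⟨n, hn, z * b, hb.mul_left ((Subgroup.closure_mono
    (Set.image_mono (Set.Ico_subset_Ico_left (Nat.zero_le 6))) : K 6 ≤ K 0) hz), ?_⟩
  have hcz : Commute z (el 9) := by
    rcases mem_K_centre hz with rfl | rfl | rfl | rfl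
    · exact Commute.one_left _
    · exact commute_centre (Or.inl rfl) (by norm_num)
    · exact commute_centre (Or.inr rfl) (by norm_num)
    · exact (commute_centre (Or.inl rfl) (by norm_num)).mul_left (commute_centre (Or.inr rfl) (by norm_num))
  rw [mul_assoc (U n), hcz.eq]
  simp only [mul_assoc]

theorem form_cover {g : Equiv.Perm (Fin 2145)} (hg : g ∈ Cover) : Form g := by
  obtain ⟨-, -, -, hd7, hww, hwd⟩ := rel_facts
  refine cover_induction (p := Form) (Or.inl ⟨1, one_mem _, 0, by simp⟩) (fun i hi g hg => ?_) hg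
  rcases Nat.lt_or_ge i 8 with h | h
  · rcases hg with hb | ⟨n, hn, b, hb, rfl⟩
    · exact Or.inl (hb.mul_left (el_mem_K (Nat.zero_le _) h))
    · rw [← mul_assoc, ← mul_assoc]
      exact form_mul_V (mul_mem (el_mem_K (Nat.zero_le _) h) (U_mem n)) hb
  obtain rfl | rfl : i = 8 ∨ i = 9 := by omega
  · rcases hg with hb | ⟨n, hn, b, hb, rfl⟩
    · exact Or.inl hb.d_mul
    · have hdw : el 8 * el 9 = el 9 * el 8 ^ 6 := by
        calc el 8 * el 9 = el 9 * (el 9 * el 8) * el 9 := by rw [← mul_assoc, hww, one_mul]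
          _ = _ := by rw [hwd, mul_assoc, mul_assoc, hww, mul_one]
      have e : el 8 * (U n * el 9 * b) = el 8 * U n * (el 8)⁻¹ * el 9 * (el 8 ^ 6 * b) :=
        calc el 8 * (U n * el 9 * b) = el 8 * U n * (el 8)⁻¹ * (el 8 * el 9) * b := by group
          _ = _ := by rw [hdw]; simp only [mul_assoc]
      rw [e]
      exact form_mul_V (conj_d (U_mem n)) (hb.dpow_mul 6)
  · rcases hg with hb | ⟨n, hn, b, hb, rfl⟩
    · exact Or.inr ⟨0, by norm_num, g, hb, by rw [U_zero, one_mul]⟩
    · rcases eq_or_ne n 0 with rfl | h0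
      · rw [U_zero, one_mul, ← mul_assoc, hww, one_mul]
        exact Or.inl hb
      · obtain ⟨u, hu, v, hv, k, e⟩ := bruhat_rel h0 hn
        rw [← mul_assoc, ← mul_assoc, e, mul_assoc (u * el 9), mul_assoc v]
        exact form_mul_V hu ((hb.dpow_mul k).mul_left hv)

end

end CfsgLib.SchurMult.SuzukiEight
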